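import Cfsg.Agent.Co2Type.Quad

/-!
# Isometries of `Q / Z(Q)` lift to isomorphisms of extraspecial 2-groups

`h₁ : Large Q₁ z₁`, `h₂ : Large Q₂ z₂`, `Q₁`, `Q₂` finite, `f : h₁.V ≃ₗ h₂.V` with `h₂.q (f v) = h₁.q v`:

* `exists_lift`: there is `α : Q₁ ≃* Q₂` with `h₂.pr (α x) = f (h₁.pr x)`.
-/

set_option autoImplicit false

namespace Cfsg.Agent.H823

open Cfsg.Agent.Co2Type.Quad

variable {G₁ G₂ : Type*} [Group G₁] [Group G₂] {Q₁ : Subgroup G₁} {z₁ : G₁} {Q₂ : Subgroup G₂} {z₂ : G₂}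

/-- an isometry for the quadratic forms preserves the bilinear forms -/
theorem b_of_q (h₁ : Large Q₁ z₁) (h₂ : Large Q₂ z₂) (f : h₁.V ≃ₗ[ZMod 2] h₂.V)
    (hf : ∀ v, h₂.q (f v) = h₁.q v) (v w : h₁.V) : h₂.b (f v) (f w) = h₁.b v w := by
  have e1 := h₁.q_add' v w
  have e2 := h₂.q_add' (f v) (f w)
  rw [← map_add, hf, hf, hf, e1] at e2
  exact (add_left_cancel e2).symm

/-- the fibre product of `Q₁` and `Q₂` over `f` -/
def fib (h₁ : Large Q₁ z₁) (h₂ : Large Q₂ z₂) (f : h₁.V ≃ₗ[ZMod 2] h₂.V) : Subgroup (Q₁ × Q₂) where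
  carrier := {p | h₂.pr p.2 = f (h₁.pr p.1)}
  mul_mem' {p p'} hp hp' := by
    show h₂.pr (p.2 * p'.2) = f (h₁.pr (p.1 * p'.1))
    rw [h₁.pr_mul, h₂.pr_mul, map_add, show h₂.pr p.2 = _ from hp, show h₂.pr p'.2 = _ from hp']
  one_mem' := by
    show h₂.pr 1 = f (h₁.pr 1)
    rw [h₁.pr_one, h₂.pr_one, map_zero]
  inv_mem' {p} hp := by
    show h₂.pr p.2⁻¹ = f (h₁.pr p.1⁻¹)
    rw [h₁.pr_inv, h₂.pr_inv, map_neg, show h₂.pr p.2 = _ from hp]

theorem mem_fib (h₁ : Large Q₁ z₁) (h₂ : Large Q₂ z₂) (f : h₁.V ≃ₗ[ZMod 2] h₂.V) (p : Q₁ × Q₂) :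
    p ∈ fib h₁ h₂ f ↔ h₂.pr p.2 = f (h₁.pr p.1) := Iff.rfl

/-- **Isometries lift to isomorphisms.** -/
theorem exists_lift [Finite Q₁] [Finite Q₂] (h₁ : Large Q₁ z₁) (h₂ : Large Q₂ z₂) (f : h₁.V ≃ₗ[ZMod 2] h₂.V)
    (hf : ∀ v, h₂.q (f v) = h₁.q v) : ∃ α : Q₁ ≃* Q₂, ∀ x, h₂.pr (α x) = f (h₁.pr x) := by
  classical
  have hb := b_of_q h₁ h₂ f hf
  set Z₁ : Q₁ := ⟨z₁, h₁.z_mem⟩ with hZ₁
  set Z₂ : Q₂ := ⟨z₂, h₂.z_mem⟩ with hZ₂
  have hZ₁c : ∀ x : Q₁, x * Z₁ = Z₁ * x := fun x => Subtype.ext (h₁.comm_z x x.2)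
  have hZ₂c : ∀ x : Q₂, x * Z₂ = Z₂ * x := fun x => Subtype.ext (h₂.comm_z x x.2)
  have hZ₁s : Z₁ * Z₁ = 1 := Subtype.ext h₁.z_sq
  have hZ₂s : Z₂ * Z₂ = 1 := Subtype.ext h₂.z_sq
  have hZ₁1 : Z₁ ≠ 1 := fun h => h₁.z_ne (congrArg Subtype.val h)
  have hZ₂1 : Z₂ ≠ 1 := fun h => h₂.z_ne (congrArg Subtype.val h)
  have hpr₁ : h₁.pr Z₁ = 0 := h₁.pr_eq_zero.2 (Or.inr rfl)
  have hpr₂ : h₂.pr Z₂ = 0 := h₂.pr_eq_zero.2 (Or.inr rfl)
  -- subgroups between `⟨(z₁, z₂)⟩` and the fibre product not containing `(z₁, 1)`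
  let S : Set (Subgroup (Q₁ × Q₂)) := {W | W ≤ fib h₁ h₂ f ∧ (Z₁, Z₂) ∈ W ∧ (Z₁, (1 : Q₂)) ∉ W}
  have hS : S.Nonempty := by
    refine ⟨Subgroup.zpowers (Z₁, Z₂), ?_, Subgroup.mem_zpowers _, ?_⟩
    · rw [Subgroup.zpowers_le, mem_fib]
      show h₂.pr Z₂ = f (h₁.pr Z₁)
      rw [hpr₁, hpr₂, map_zero]
    · rintro ⟨k, hk⟩
      rcases Int.even_or_odd' k with ⟨m, rfl | rfl⟩
      · have h3 : (Z₁, Z₂) ^ (2 * m) = 1 := by
          rw [zpow_mul, zpow_ofNat, pow_two]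
          have : (Z₁, Z₂) * (Z₁, Z₂) = 1 := Prod.ext hZ₁s hZ₂s
          rw [this, one_zpow]
        have hk' : (Z₁, Z₂) ^ (2 * m) = (Z₁, 1) := hk
        rw [h3] at hk'
        exact hZ₁1 (congrArg Prod.fst hk').symm
      · have h3 : (Z₁, Z₂) ^ (2 * m + 1) = (Z₁, Z₂) := by
          rw [zpow_add, zpow_mul, zpow_ofNat, pow_two]
          have : (Z₁, Z₂) * (Z₁, Z₂) = 1 := Prod.ext hZ₁s hZ₂s
          rw [this, one_zpow, zpow_one, one_mul]
        have hk' : (Z₁, Z₂) ^ (2 * m + 1) = (Z₁, 1) := hk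
        rw [h3] at hk'
        exact hZ₂1 (congrArg Prod.snd hk')
  obtain ⟨W, ⟨hWF, hWD, hWz⟩, hWmax⟩ := (Set.toFinite S).exists_maximal hS
  -- squares and commutators of the fibre product lie in `{1, (z₁, z₂)}`
  have hD : ∀ w : Q₁ × Q₂, w = 1 ∨ w = (Z₁, Z₂) → w ∈ W := by
    rintro w (rfl | rfl)
    · exact one_mem _
    · exact hWD
  have hsq : ∀ w ∈ fib h₁ h₂ f, w * w ∈ W := by
    rintro ⟨x, y⟩ hw
    rw [mem_fib] at hw
    have hq : h₂.q (h₂.pr y) = h₁.q (h₁.pr x) := by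
      rw [show h₂.pr y = _ from hw, hf]
    apply hD
    rcases h₁.sq x x.2 with h3 | h3
    · left
      have h4 : h₁.q (h₁.pr x) = 0 := h₁.q_eq_zero.2 h3
      rw [h4] at hq
      exact Prod.ext (Subtype.ext h3) (Subtype.ext (h₂.q_eq_zero.1 hq))
    · right
      have h4 : h₁.q (h₁.pr x) = 1 := h₁.q_eq_one.2 h3
      rw [h4] at hq
      exact Prod.ext (Subtype.ext h3) (Subtype.ext (h₂.q_eq_one.1 hq))
  have hcm : ∀ w ∈ fib h₁ h₂ f, ∀ w' ∈ fib h₁ h₂ f, w * w' * w⁻¹ * w'⁻¹ ∈ W := by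
    intro w hw w' hw'
    -- `[w, w'] = w² (w⁻¹ w')² w'⁻²`
    have e : w * w' * w⁻¹ * w'⁻¹ = (w * w) * ((w⁻¹ * w') * (w⁻¹ * w')) * (w'⁻¹ * w'⁻¹) := by group
    rw [e]
    exact mul_mem (mul_mem (hsq w hw) (hsq _ (mul_mem (inv_mem hw) hw'))) (hsq _ (inv_mem hw'))
  -- the key: `fib = W ∪ (z₁, 1) W`
  have key : ∀ x : Q₁, ∀ y : Q₂, (x, y) ∈ fib h₁ h₂ f → (x, y) ∈ W ∨ (Z₁ * x, y) ∈ W := by
    intro x y hxy
    by_contra hcon
    push Not at hcon
    obtain ⟨h3, h4⟩ := hcon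
    -- `W' = W ∪ (x, y) W`
    let W' : Subgroup (Q₁ × Q₂) :=
      { carrier := {p | p ∈ W ∨ (x, y) * p ∈ W}
        one_mem' := Or.inl (one_mem _)
        mul_mem' := by
          have hF : ∀ p, (x, y) * p ∈ W → p ∈ fib h₁ h₂ f := by
            intro p hp
            have : p = (x, y)⁻¹ * ((x, y) * p) := by group
            rw [this]; exact mul_mem (inv_mem hxy) (hWF hp)
          rintro p p' (hp | hp) (hp' | hp')
          · exact Or.inl (mul_mem hp hp')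
          · right
            have e : (x, y) * (p * p') = ((x, y) * p * (x, y)⁻¹ * p⁻¹) * (p * ((x, y) * p')) := by group
            rw [e]
            exact mul_mem (hcm _ hxy _ (hWF hp)) (mul_mem hp hp')
          · right
            rw [← mul_assoc]; exact mul_mem hp hp'
          · left
            -- `p p' = ((x,y) p) [..] ((x,y) p') (x,y)⁻²`
            have hpF := hF p hp
            have hpF' := hF p' hp'
            have e : p * p' = ((x, y)⁻¹ * (x, y)⁻¹) * ((x, y) * ((x, y) * p) * (x, y)⁻¹ * ((x, y) * p)⁻¹) *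
                (((x, y) * p) * ((x, y) * p')) := by group
            rw [e]
            exact mul_mem (mul_mem (hsq _ (inv_mem hxy)) (hcm _ hxy _ (mul_mem hxy hpF))) (mul_mem hp hp')
        inv_mem' := by
          have hF : ∀ p, (x, y) * p ∈ W → p ∈ fib h₁ h₂ f := by
            intro p hp
            have : p = (x, y)⁻¹ * ((x, y) * p) := by group
            rw [this]; exact mul_mem (inv_mem hxy) (hWF hp)
          rintro p (hp | hp)
          · exact Or.inl (inv_mem hp)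
          · right
            have hpF := hF p hp
            have e : (x, y) * p⁻¹ = ((x, y) * p) * (p⁻¹ * p⁻¹) := by group
            rw [e]
            exact mul_mem hp (hsq _ (inv_mem hpF)) }
    have hW'F : W' ≤ fib h₁ h₂ f := by
      rintro p (hp | hp)
      · exact hWF hp
      · have : p = (x, y)⁻¹ * ((x, y) * p) := by group
        rw [this]; exact mul_mem (inv_mem hxy) (hWF hp)
    have hWW' : W ≤ W' := fun p hp => Or.inl hp
    have hxW' : (x, y) ∈ W' := Or.inr (hsq _ hxy)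
    have hzW' : (Z₁, (1 : Q₂)) ∈ W' := by
      by_contra hz
      exact h3 (hWmax ⟨hW'F, hWW' hWD, hz⟩ hWW' hxW')
    rcases hzW' with h5 | h5
    · exact hWz h5
    · apply h4
      have e : (Z₁ * x, y) = (x, y) * (Z₁, 1) := by
        rw [Prod.mk_mul_mk, mul_one, hZ₁c]
      rw [e]; exact h5
  -- the two projections of `W`
  have hfst : Function.Bijective ((MonoidHom.fst Q₁ Q₂).comp W.subtype) := by
    constructor
    · rw [injective_iff_map_eq_one]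
      rintro ⟨⟨x, y⟩, hw⟩ hx
      have hx' : x = 1 := hx
      subst hx'
      have h3 : h₂.pr y = f (h₁.pr 1) := hWF hw
      rw [h₁.pr_one, map_zero, h₂.pr_eq_zero] at h3
      rcases h3 with h3 | h3
      · exact Subtype.ext (Prod.ext rfl (Subtype.ext h3))
      · exfalso
        apply hWz
        have e : (Z₁, (1 : Q₂)) = (1, y) * (Z₁, Z₂) := by
          rw [Prod.mk_mul_mk, one_mul]
          have : y = Z₂ := Subtype.ext h3
          rw [this, hZ₂s]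
        rw [e]; exact mul_mem hw hWD
    · intro x
      obtain ⟨y, hy⟩ := h₂.pr_surjective (f (h₁.pr x))
      rcases key x y hy with h3 | h3
      · exact ⟨⟨_, h3⟩, rfl⟩
      · refine ⟨⟨(x, Z₂ * y), ?_⟩, rfl⟩
        have e : (x, Z₂ * y) = (Z₁, Z₂) * (Z₁ * x, y) := by
          rw [Prod.mk_mul_mk, ← mul_assoc, hZ₁s, one_mul]
        rw [e]; exact mul_mem hWD h3
  have hsnd : Function.Bijective ((MonoidHom.snd Q₁ Q₂).comp W.subtype) := by
    constructor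
    · rw [injective_iff_map_eq_one]
      rintro ⟨⟨x, y⟩, hw⟩ hy
      have hy' : y = 1 := hy
      subst hy'
      have h3 : h₂.pr 1 = f (h₁.pr x) := hWF hw
      rw [h₂.pr_one] at h3
      have h4 : h₁.pr x = 0 := f.map_eq_zero_iff.1 h3.symm
      rcases h₁.pr_eq_zero.1 h4 with h5 | h5
      · exact Subtype.ext (Prod.ext (Subtype.ext h5) rfl)
      · exfalso
        apply hWz
        have : x = Z₁ := Subtype.ext h5
        rw [← this]; exact hw
    · intro y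
      obtain ⟨x, hx⟩ := h₁.pr_surjective (f.symm (h₂.pr y))
      have hxy : (x, y) ∈ fib h₁ h₂ f := by
        rw [mem_fib]
        show h₂.pr y = f (h₁.pr x)
        rw [hx, f.apply_symm_apply]
      rcases key x y hxy with h3 | h3
      · exact ⟨⟨_, h3⟩, rfl⟩
      · exact ⟨⟨_, h3⟩, rfl⟩
  let e₁ : W ≃* Q₁ := MulEquiv.ofBijective _ hfst
  let e₂ : W ≃* Q₂ := MulEquiv.ofBijective _ hsnd
  refine ⟨e₁.symm.trans e₂, fun x => ?_⟩
  obtain ⟨w, rfl⟩ := e₁.surjective x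
  have e3 : (e₁.symm.trans e₂) (e₁ w) = e₂ w := by
    rw [MulEquiv.trans_apply, MulEquiv.symm_apply_apply]
  rw [e3]
  exact hWF w.2

end Cfsg.Agent.H823
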