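import Cfsg.Agent.H823.Core
import Cfsg.Agent.LargeExtra.TwoCentral
import Cfsg.Prelude.Def_Solvable

/-!
# The subgroup generated by two large extraspecial subgroups `Q`, `A = Q ^ g` with `z ^ g ∈ Q`

For `p : Pair Q z A a` : `V = ⟨z, a⟩`, `X = ⟨Q, A⟩`, `R = C_A(z) C_Q(a)`.

* `mem_V`, `mem_cV`: elements of `V`, `C_G(V)`;
* `cent_U`: `C_G(C_Q(a)) = V`;
* `R_normal`: `X` normalises `R`;
* `comm_CV`: `[X, C_G(V)] ≤ R`;
* `X_inf_CV`: `X ∩ C_G(V) = R`.
-/

set_option autoImplicit false

namespace Cfsg.Agent.H823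

open Cfsg Cfsg.Agent.Co2Type.Quad Cfsg.Agent.LargeExtra.Base Cfsg.Agent.LargeExtra.TwoCentral

variable {G : Type*} [Group G] {Q A : Subgroup G} {z a : G}

/-- the element `a` has square one -/
theorem sq_a (p : Pair Q z A a) : a * a = 1 := p.la.z_sq

theorem sq_z (p : Pair Q z A a) : z * z = 1 := p.lz.z_sq

/-- `V = {1, z, a, a z}` -/
theorem mem_V (p : Pair Q z A a) {x : G} :
    x ∈ Subgroup.closure ({z, a} : Set G) ↔ x = 1 ∨ x = z ∨ x = a ∨ x = a * z := by
  have hza := p.comm_za
  have hz2 := sq_z p
  have ha2 := sq_a p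
  constructor
  · intro hx
    induction hx using Subgroup.closure_induction with
    | mem y hy =>
      rcases hy with rfl | hy
      · right; left; rfl
      · right; right; left; exact hy
    | one => left; rfl
    | mul x y _ _ hx hy =>
      rcases hx with rfl | rfl | rfl | rfl
      · rw [one_mul]; exact hy
      · rcases hy with rfl | rfl | rfl | rfl
        · right; left; exact mul_one _
        · left; exact hz2
        · right; right; right; exact hza.symm
        · right; right; left
          rw [hza, ← mul_assoc, hz2, one_mul]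
      · rcases hy with rfl | rfl | rfl | rfl
        · right; right; left; exact mul_one _
        · right; right; right; rfl
        · left; exact ha2
        · right; left
          rw [← mul_assoc, ha2, one_mul]
      · rcases hy with rfl | rfl | rfl | rfl
        · right; right; right; exact mul_one _
        · right; right; left; rw [mul_assoc, hz2, mul_one]
        · right; left; rw [mul_assoc, ← hza, ← mul_assoc, ha2, one_mul]
        · left
          calc a * z * (a * z) = a * (z * a) * z := by group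
            _ = a * (a * z) * z := by rw [hza]
            _ = (a * a) * (z * z) := by group
            _ = 1 := by rw [ha2, hz2, one_mul]
    | inv x _ hx =>
      rcases hx with rfl | rfl | rfl | rfl
      · left; exact inv_one
      · right; left; exact inv_eq_of_mul_eq_one_left hz2
      · right; right; left; exact inv_eq_of_mul_eq_one_left ha2
      · right; right; right
        rw [mul_inv_rev, inv_eq_of_mul_eq_one_left hz2, inv_eq_of_mul_eq_one_left ha2, hza]
  · have h1 : z ∈ Subgroup.closure ({z, a} : Set G) := Subgroup.subset_closure (by simp)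
    have h2 : a ∈ Subgroup.closure ({z, a} : Set G) := Subgroup.subset_closure (by simp)
    rintro (rfl | rfl | rfl | rfl)
    · exact one_mem _
    · exact h1
    · exact h2
    · exact mul_mem h2 h1

/-- `C_G(V)` -/
theorem mem_cV {x : G} : x ∈ Subgroup.centralizer ((Subgroup.closure ({z, a} : Set G) : Subgroup G) : Set G) ↔
    x * z = z * x ∧ x * a = a * x := by
  rw [Subgroup.centralizer_closure, Subgroup.mem_centralizer_iff]
  constructor
  · intro h
    exact ⟨(h z (by simp)).symm, (h a (by simp)).symm⟩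
  · rintro ⟨h1, h2⟩ y (rfl | hy)
    · exact h1.symm
    · rw [Set.mem_singleton_iff] at hy; subst hy; exact h2.symm

/-- `C_G(C_Q(a)) = V`. -/
theorem cent_U (h : Large Q z) (haQ : a ∈ Q) (ha2 : a * a = 1) (ha1 : a ≠ 1) (haz : a ≠ z) {x : G}
    (hx : ∀ u ∈ Q, u * a = a * u → x * u = u * x) : x = 1 ∨ x = z ∨ x = a ∨ x = a * z := by
  have hza : a * z = z * a := h.comm_z a haQ
  have hxz : x * z = z * x := hx z h.z_mem hza.symm
  have hxa : x * a = a * x := hx a haQ rfl
  obtain ⟨c, hc, hca⟩ := exists_not_comm h haQ ha1 haz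
  -- `hca : c * a = a * c * z`
  have hcz : c * z = z * c := h.comm_z c hc
  set u₀ := c⁻¹ * (x * c * x⁻¹) with hu₀
  have hu₀Q : u₀ ∈ Q := mul_mem (inv_mem hc) (h.conj_mem x hxz c hc)
  have hxc : x * c * x⁻¹ = c * u₀ := by rw [hu₀]; group
  -- `u₀` commutes with `C_Q(a)`
  have h1 : ∀ r ∈ Q, r * a = a * r → r * u₀ = u₀ * r := by
    intro r hr hra
    have hrx := hx r hr hra
    have hrx' : x * r * x⁻¹ = r := by rw [hrx]; group
    have h2 : x * (r * c) * x⁻¹ = r * (c * u₀) := by
      calc x * (r * c) * x⁻¹ = (x * r * x⁻¹) * (x * c * x⁻¹) := by group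
        _ = r * (c * u₀) := by rw [hrx', hxc]
    rcases h.comm r hr c hc with h3 | h3
    · have h4 : x * (r * c) * x⁻¹ = c * u₀ * r := by
        calc x * (r * c) * x⁻¹ = (x * c * x⁻¹) * (x * r * x⁻¹) := by rw [h3]; group
          _ = c * u₀ * r := by rw [hrx', hxc]
      have h5 : c * (r * u₀) = c * (u₀ * r) := by
        calc c * (r * u₀) = (c * r) * u₀ := by group
          _ = r * (c * u₀) := by rw [← h3]; group
          _ = c * (u₀ * r) := by rw [← h2, h4]; group
      exact mul_left_cancel h5
    · have hxz' : x * z * x⁻¹ = z := by rw [hxz]; group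
      have h4 : x * (r * c) * x⁻¹ = c * u₀ * r * z := by
        calc x * (r * c) * x⁻¹ = (x * c * x⁻¹) * (x * r * x⁻¹) * (x * z * x⁻¹) := by rw [h3]; group
          _ = c * u₀ * r * z := by rw [hrx', hxc, hxz']
      have hu₀z : u₀ * z = z * u₀ := h.comm_z _ hu₀Q
      have h5 : c * (r * u₀) * z = c * (u₀ * r) * z := by
        calc c * (r * u₀) * z = (c * r) * (u₀ * z) := by group
          _ = (c * r * z) * u₀ := by rw [hu₀z]; group
          _ = r * (c * u₀) := by rw [← h3]; group
          _ = c * (u₀ * r) * z := by rw [← h2, h4]; group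
      exact mul_left_cancel (mul_right_cancel h5)
  have hcsq : (c * u₀) * (c * u₀) = c * c := by
    rw [← hxc]
    have hxcc : x * (c * c) = (c * c) * x := by
      rcases h.sq c hc with h2 | h2
      · rw [h2]; group
      · rw [h2]; exact hxz
    calc x * c * x⁻¹ * (x * c * x⁻¹) = x * (c * c) * x⁻¹ := by group
      _ = c * c := by rw [hxcc]; group
  -- conclusion when `x` commutes with `c`
  have hfin : ∀ y : G, (∀ u ∈ Q, u * a = a * u → y * u = u * y) → y * c = c * y → y = 1 ∨ y = z := by
    intro y hy hyc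
    apply eq_of_central h
    intro q hq
    rcases h.comm q hq a haQ with h2 | h2
    · exact hy q hq h2
    · have h3 : (c⁻¹ * q) * a = a * (c⁻¹ * q) := by
        have h4 : c⁻¹ * a = a * c⁻¹ * z := by
          have h5 : c⁻¹ * (a * c * z) = a := by rw [← hca]; group
          calc c⁻¹ * a = c⁻¹ * (a * c * z) * z⁻¹ * c⁻¹ := by
                have : c⁻¹ * (a * c * z) * z⁻¹ * c⁻¹ = c⁻¹ * a := by group
                rw [this]
            _ = a * z⁻¹ * c⁻¹ := by rw [h5]
            _ = a * (z⁻¹ * c⁻¹) := by group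
            _ = a * (c * z)⁻¹ := by rw [mul_inv_rev]
            _ = a * (z * c)⁻¹ := by rw [hcz]
            _ = a * c⁻¹ * z⁻¹ := by group
            _ = a * c⁻¹ * z := by rw [h.z_inv]
        calc (c⁻¹ * q) * a = c⁻¹ * (a * q * z) := by rw [mul_assoc, h2]
          _ = (c⁻¹ * a) * (q * z) := by group
          _ = (a * c⁻¹ * z) * (q * z) := by rw [h4]
          _ = a * c⁻¹ * (z * q) * z := by group
          _ = a * c⁻¹ * (q * z) * z := by rw [h.comm_z q hq]
          _ = a * (c⁻¹ * q) * (z * z) := by group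
          _ = a * (c⁻¹ * q) := by rw [h.z_sq, mul_one]
      have h4 := hy _ (mul_mem (inv_mem hc) hq) h3
      calc y * q = (y * c) * (c⁻¹ * q) := by group
        _ = c * (y * (c⁻¹ * q)) := by rw [hyc]; group
        _ = c * ((c⁻¹ * q) * y) := by rw [h4]
        _ = q * y := by group
  have hcac : c * a * (c * a) = c * c * z := by
    calc c * a * (c * a) = c * (a * c) * a := by group
      _ = c * (a * c * z) * z⁻¹ * a := by group
      _ = c * (c * a) * z⁻¹ * a := by rw [hca]
      _ = c * c * (a * z) * a := by rw [h.z_inv]; group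
      _ = c * c * (z * a) * a := by rw [hza]
      _ = c * c * z * (a * a) := by group
      _ = c * c * z := by rw [ha2, mul_one]
  have hne : c * c * z ≠ c * c := by
    intro h2
    exact h.z_ne (mul_eq_left.1 h2)
  rcases eq_of_cent h haQ hu₀Q h1 with h2 | h2 | h2 | h2
  · -- `u₀ = 1`
    rw [h2, mul_one] at hxc
    have h3 : x * c = c * x := mul_inv_eq_iff_eq_mul.1 hxc
    rcases hfin x hx h3 with h4 | h4
    · exact Or.inl h4
    · exact Or.inr (Or.inl h4)
  · -- `u₀ = z`
    rw [h2] at hxc
    have h3 : x * c = c * z * x := mul_inv_eq_iff_eq_mul.1 hxc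
    have h4 : ∀ u ∈ Q, u * a = a * u → (x * a) * u = u * (x * a) := by
      intro u hu hua
      calc (x * a) * u = x * (u * a) := by rw [hua]; group
        _ = (x * u) * a := by group
        _ = u * (x * a) := by rw [hx u hu hua]; group
    have h5 : (x * a) * c = c * (x * a) := by
      calc (x * a) * c = x * (a * c * z) * z⁻¹ := by group
        _ = (x * c) * a * z⁻¹ := by rw [← hca]; group
        _ = c * z * x * (a * z) := by rw [h3, h.z_inv]; group
        _ = c * z * x * (z * a) := by rw [hza]
        _ = c * z * (x * z) * a := by group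
        _ = c * z * (z * x) * a := by rw [hxz]
        _ = c * (z * z) * (x * a) := by group
        _ = c * (x * a) := by rw [h.z_sq, mul_one]
    rcases hfin _ h4 h5 with h6 | h6
    · right; right; left
      rw [eq_inv_of_mul_eq_one_left h6]; exact inv_eq_of_mul_eq_one_left ha2
    · right; right; right
      have : x = z * a⁻¹ := by rw [← h6]; group
      rw [this, inv_eq_of_mul_eq_one_left ha2, hza]
  · exfalso
    rw [h2, hcac] at hcsq
    exact hne hcsq
  · exfalso
    apply hne
    rw [← hcac, ← hcsq, h2]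
    calc c * a * (c * a) = c * a * (c * a) * (z * z) := by rw [h.z_sq, mul_one]
      _ = c * a * (c * (a * z)) * z := by group
      _ = c * a * (c * (z * a)) * z := by rw [hza]
      _ = c * a * ((c * z) * a) * z := by group
      _ = c * a * ((z * c) * a) * z := by rw [hcz]
      _ = c * (a * z) * (c * (a * z)) := by group

/-- `[q, v] ∈ V` type statement: an element of `Q` fixes `z` and moves `a` to `a` or `a z`. -/
theorem conj_a (h : Large Q z) (haQ : a ∈ Q) {q : G} (hq : q ∈ Q) :
    q * a * q⁻¹ = a ∨ q * a * q⁻¹ = a * z := by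
  rcases h.comm q hq a haQ with h1 | h1
  · left; rw [h1]; group
  · right
    rw [h1]
    have h2 : q * z = z * q := h.comm_z q hq
    calc a * q * z * q⁻¹ = a * (q * z) * q⁻¹ := by group
      _ = a * (z * q) * q⁻¹ := by rw [h2]
      _ = a * z := by group

theorem inv_comm {x y : G} (h : x * y = y * x) : x⁻¹ * y = y * x⁻¹ := by
  calc x⁻¹ * y = x⁻¹ * (y * x) * x⁻¹ := by group
    _ = x⁻¹ * (x * y) * x⁻¹ := by rw [h]
    _ = y * x⁻¹ := by group

/-- `[C_G(V), Q] ≤ C_Q(a)` -/
theorem comm_cV_Q (h : Large Q z) (haQ : a ∈ Q) {c q : G} (hcz : c * z = z * c) (hca : c * a = a * c)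
    (hq : q ∈ Q) : c * q * c⁻¹ * q⁻¹ ∈ Q ∧ (c * q * c⁻¹ * q⁻¹) * a = a * (c * q * c⁻¹ * q⁻¹) := by
  refine ⟨mul_mem (h.conj_mem c hcz q hq) (inv_mem hq), ?_⟩
  have hza : a * z = z * a := h.comm_z a haQ
  have hca' := inv_comm hca
  rcases h.comm q hq a haQ with h1 | h1
  · have h1' := inv_comm h1
    calc (c * q * c⁻¹ * q⁻¹) * a = c * q * c⁻¹ * (q⁻¹ * a) := by group
      _ = c * q * (c⁻¹ * a) * q⁻¹ := by rw [h1']; group
      _ = c * (q * a) * c⁻¹ * q⁻¹ := by rw [hca']; group
      _ = (c * a) * q * c⁻¹ * q⁻¹ := by rw [h1]; group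
      _ = a * (c * q * c⁻¹ * q⁻¹) := by rw [hca]; group
  · have hqz : q * z = z * q := h.comm_z q hq
    have h1' : q⁻¹ * a = a * z * q⁻¹ := by
      have h2 : q * (a * z) = a * q := by
        calc q * (a * z) = (q * a) * z := by group
          _ = a * q * (z * z) := by rw [h1]; group
          _ = a * q := by rw [h.z_sq, mul_one]
      calc q⁻¹ * a = q⁻¹ * (a * q) * q⁻¹ := by group
        _ = q⁻¹ * (q * (a * z)) * q⁻¹ := by rw [h2]
        _ = a * z * q⁻¹ := by group
    have hcz' := inv_comm hcz
    calc (c * q * c⁻¹ * q⁻¹) * a = c * q * c⁻¹ * (q⁻¹ * a) := by group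
      _ = c * q * (c⁻¹ * a) * z * q⁻¹ := by rw [h1']; group
      _ = c * (q * a) * (c⁻¹ * z) * q⁻¹ := by rw [hca']; group
      _ = c * (a * q * z) * (z * c⁻¹) * q⁻¹ := by rw [h1, hcz']
      _ = c * a * q * (z * z) * c⁻¹ * q⁻¹ := by group
      _ = (c * a) * q * c⁻¹ * q⁻¹ := by rw [h.z_sq, mul_one]
      _ = a * (c * q * c⁻¹ * q⁻¹) := by rw [hca]; group

end Cfsg.Agent.H823
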