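import Cfsg.Agent.H823.PairExt
import Cfsg.Agent.Lib.Cores

/-!
# `X = ⟨Q, A⟩` for a pair of large extraspecial subgroups

For `p : Pair Q z A a`, `R = RR Q A z a = C_A(z) C_Q(a)`:

* `R_conj_X`: `X` normalises `R`;
* `comm_X_cV`: `[X, C_G(V)] ≤ R`;
* `X_inf_cV`: `X ∩ C_G(V) = R`;
* `quot_equiv`: `X / R ≅ S₃`;
* `R_eq_pCore`: `R = O₂(X)`;
* `normalizer_V`: `N_G(V) = X C_G(V)`.
-/

set_option autoImplicit false

namespace Cfsg.Agent.H823

open Cfsg Cfsg.Agent.Co2Type.Quad Cfsg.Agent.LargeExtra.Base Cfsg.Agent.LargeExtra.TwoCentral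

/-- `R = C_A(z) C_Q(a)` -/
def RR {G : Type*} [Group G] (Q A : Subgroup G) (z a : G) : Subgroup G :=
  (A ⊓ Subgroup.centralizer ({z} : Set G)) ⊔ (Q ⊓ Subgroup.centralizer ({a} : Set G))

variable {G : Type*} [Group G] {Q A : Subgroup G} {z a : G}

theorem RR_symm : RR Q A z a = RR A Q a z := sup_comm _ _

theorem mem_RR_of_Q {x : G} (hx : x ∈ Q) (hxa : x * a = a * x) : x ∈ RR Q A z a :=
  Subgroup.mem_sup_right ⟨hx, Subgroup.mem_centralizer_singleton_iff.2 hxa⟩

theorem mem_RR_of_A {x : G} (hx : x ∈ A) (hxz : x * z = z * x) : x ∈ RR Q A z a :=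
  Subgroup.mem_sup_left ⟨hx, Subgroup.mem_centralizer_singleton_iff.2 hxz⟩

/-- elements of `R` centralise `V` -/
theorem RR_le_cV (p : Pair Q z A a) {x : G} (hx : x ∈ RR Q A z a) : x * z = z * x ∧ x * a = a * x := by
  have h1 : RR Q A z a ≤ Subgroup.centralizer ({z, a} : Set G) := by
    apply sup_le
    · rintro y ⟨hy, hyz⟩
      have hyz' := Subgroup.mem_centralizer_singleton_iff.1 hyz
      rw [Subgroup.mem_centralizer_iff]
      rintro v (rfl | hv)
      · exact hyz'.symm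
      · rw [Set.mem_singleton_iff] at hv; subst hv; exact (p.la.comm_z y hy).symm
    · rintro y ⟨hy, hya⟩
      have hya' := Subgroup.mem_centralizer_singleton_iff.1 hya
      rw [Subgroup.mem_centralizer_iff]
      rintro v (rfl | hv)
      · exact (p.lz.comm_z y hy).symm
      · rw [Set.mem_singleton_iff] at hv; subst hv; exact hya'.symm
  have h2 := Subgroup.mem_centralizer_iff.1 (h1 hx)
  exact ⟨(h2 z (by simp)).symm, (h2 a (by simp)).symm⟩

/-- `[C_G(V), Q] ≤ R` -/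
theorem comm_cV_Q_mem (p : Pair Q z A a) {c q : G} (hcz : c * z = z * c) (hca : c * a = a * c)
    (hq : q ∈ Q) : c * q * c⁻¹ * q⁻¹ ∈ RR Q A z a := by
  obtain ⟨h1, h2⟩ := comm_cV_Q p.lz p.a_mem hcz hca hq
  exact mem_RR_of_Q h1 h2

/-- `Q` normalises `R` -/
theorem R_conj_Q (p : Pair Q z A a) {q r : G} (hq : q ∈ Q) (hr : r ∈ RR Q A z a) :
    q * r * q⁻¹ ∈ RR Q A z a := by
  obtain ⟨h1, h2⟩ := RR_le_cV p hr
  have h3 := comm_cV_Q_mem p h1 h2 hq
  have h4 : q * r * q⁻¹ = (r * q * r⁻¹ * q⁻¹)⁻¹ * r := by group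
  rw [h4]
  exact mul_mem (inv_mem h3) hr

theorem Q_le_norm (p : Pair Q z A a) : Q ≤ Subgroup.normalizer (RR Q A z a : Set G) := by
  intro q hq
  rw [Subgroup.mem_normalizer_iff]
  intro x
  refine ⟨fun hx => R_conj_Q p hq hx, fun hx => ?_⟩
  have h1 := R_conj_Q p (inv_mem hq) hx
  have h2 : q⁻¹ * (q * x * q⁻¹) * q⁻¹⁻¹ = x := by group
  rwa [h2] at h1

theorem A_le_norm (p : Pair Q z A a) : A ≤ Subgroup.normalizer (RR Q A z a : Set G) := by
  rw [RR_symm]; exact Q_le_norm p.symm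

theorem X_le_norm (p : Pair Q z A a) : Q ⊔ A ≤ Subgroup.normalizer (RR Q A z a : Set G) :=
  sup_le (Q_le_norm p) (A_le_norm p)

/-- `X` normalises `R` -/
theorem R_conj_X (p : Pair Q z A a) {x r : G} (hx : x ∈ Q ⊔ A) (hr : r ∈ RR Q A z a) :
    x * r * x⁻¹ ∈ RR Q A z a :=
  (Subgroup.mem_normalizer_iff.1 (X_le_norm p hx) r).1 hr

theorem R_le_X (Q A : Subgroup G) (z a : G) : RR Q A z a ≤ Q ⊔ A :=
  sup_le (inf_le_left.trans le_sup_right) (inf_le_left.trans le_sup_left)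

theorem comm_cV_A_mem (p : Pair Q z A a) {c q : G} (hcz : c * z = z * c) (hca : c * a = a * c)
    (hq : q ∈ A) : c * q * c⁻¹ * q⁻¹ ∈ RR Q A z a := by
  rw [RR_symm]; exact comm_cV_Q_mem p.symm hca hcz hq

/-- `[C_G(V), X] ≤ R` -/
theorem comm_cV_X (p : Pair Q z A a) {c x : G} (hcz : c * z = z * c) (hca : c * a = a * c)
    (hx : x ∈ Q ⊔ A) : c * x * c⁻¹ * x⁻¹ ∈ RR Q A z a := by
  rw [Subgroup.sup_eq_closure] at hx
  induction hx using Subgroup.closure_induction with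
  | mem y hy =>
    rcases hy with hy | hy
    · exact comm_cV_Q_mem p hcz hca hy
    · exact comm_cV_A_mem p hcz hca hy
  | one =>
    have : c * 1 * c⁻¹ * (1 : G)⁻¹ = 1 := by group
    rw [this]; exact one_mem _
  | mul x y hx' hy' hx hy =>
    rw [← Subgroup.sup_eq_closure] at hx'
    have h1 := R_conj_X p hx' hy
    have : c * (x * y) * c⁻¹ * (x * y)⁻¹ = (c * x * c⁻¹ * x⁻¹) * (x * (c * y * c⁻¹ * y⁻¹) * x⁻¹) := by group
    rw [this]; exact mul_mem hx h1
  | inv x hx' hx =>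
    rw [← Subgroup.sup_eq_closure] at hx'
    have h1 := R_conj_X p (inv_mem hx') (inv_mem hx)
    have : c * x⁻¹ * c⁻¹ * x⁻¹⁻¹ = x⁻¹ * (c * x * c⁻¹ * x⁻¹)⁻¹ * x⁻¹⁻¹ := by group
    rw [this]; exact h1

/-- representatives of `Q / C_Q(a)` and `A / C_A(z)` -/
theorem exists_q0 (p : Pair Q z A a) : ∃ q ∈ Q, q * a = a * q * z := by
  obtain ⟨q, h1, h2⟩ := exists_not_comm p.lz p.a_mem p.la.z_ne p.ne
  exact ⟨q, h1, h2⟩

/-- `q₀⁻¹ q ∈ R` for `q ∈ Q` not commuting with `a`. -/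
theorem Q_cases (p : Pair Q z A a) {q₀ q : G} (hq₀ : q₀ ∈ Q) (h₀ : q₀ * a = a * q₀ * z) (hq : q ∈ Q) :
    q ∈ RR Q A z a ∨ q₀⁻¹ * q ∈ RR Q A z a := by
  rcases p.lz.comm q hq a p.a_mem with h1 | h1
  · left; exact mem_RR_of_Q hq h1
  · right
    refine mem_RR_of_Q (mul_mem (inv_mem hq₀) hq) ?_
    have h2 : q₀ * (a * z) = a * q₀ := by
      calc q₀ * (a * z) = (q₀ * a) * z := by group
        _ = a * q₀ * (z * z) := by rw [h₀]; group
        _ = a * q₀ := by rw [p.lz.z_sq, mul_one]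
    have h3 : q₀⁻¹ * a = a * z * q₀⁻¹ := by
      calc q₀⁻¹ * a = q₀⁻¹ * (a * q₀) * q₀⁻¹ := by group
        _ = q₀⁻¹ * (q₀ * (a * z)) * q₀⁻¹ := by rw [h2]
        _ = a * z * q₀⁻¹ := by group
    have hqz := p.lz.comm_z q hq
    have hqz₀ := inv_comm (p.lz.comm_z q₀ hq₀)
    calc q₀⁻¹ * q * a = q₀⁻¹ * (a * q * z) := by rw [mul_assoc, h1]
      _ = (q₀⁻¹ * a) * (q * z) := by group
      _ = a * (z * q₀⁻¹) * (q * z) := by rw [h3]; group
      _ = a * (q₀⁻¹ * z) * (z * q) := by rw [hqz₀, hqz]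
      _ = a * q₀⁻¹ * (z * z) * q := by group
      _ = a * (q₀⁻¹ * q) := by rw [p.lz.z_sq]; group

/-- the six coset representatives -/
def reps (q b : G) : Set G := {1, q, b, q * b, b * q, q * b * q}

/-- `q₀` conjugates `a` to `a z`. -/
theorem conj_q_a (p : Pair Q z A a) {q : G} (hq : q ∈ Q) (h1 : q * a = a * q * z) :
    q * a * q⁻¹ = a * z := by
  rw [h1]
  have h2 : q * z = z * q := p.lz.comm_z q hq
  calc a * q * z * q⁻¹ = a * (q * z) * q⁻¹ := by group
    _ = a * (z * q) * q⁻¹ := by rw [h2]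
    _ = a * z := by group

theorem conj_q_z (p : Pair Q z A a) {q : G} (hq : q ∈ Q) : q * z * q⁻¹ = z := by
  rw [p.lz.comm_z q hq]; group

theorem conj_q_az (p : Pair Q z A a) {q : G} (hq : q ∈ Q) (h1 : q * a = a * q * z) :
    q * (a * z) * q⁻¹ = a := by
  calc q * (a * z) * q⁻¹ = (q * a * q⁻¹) * (q * z * q⁻¹) := by group
    _ = a * (z * z) := by rw [conj_q_a p hq h1, conj_q_z p hq]; group
    _ = a := by rw [p.lz.z_sq, mul_one]

theorem conj_b_z (p : Pair Q z A a) {b : G} (hb : b ∈ A) (h1 : b * z = z * b * a) :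
    b * z * b⁻¹ = a * z := by
  rw [conj_q_a p.symm hb h1, p.comm_za]

theorem conj_b_a (p : Pair Q z A a) {b : G} (hb : b ∈ A) : b * a * b⁻¹ = a := conj_q_z p.symm hb

theorem conj_b_az (p : Pair Q z A a) {b : G} (hb : b ∈ A) (h1 : b * z = z * b * a) :
    b * (a * z) * b⁻¹ = z := by
  rw [p.comm_za]; exact conj_q_az p.symm hb h1

/-- `q₀ b₀` maps `z` to `a`. -/
theorem conj_qb (p : Pair Q z A a) {q b : G} (hq : q ∈ Q) (h1 : q * a = a * q * z) (hb : b ∈ A)
    (h2 : b * z = z * b * a) : (q * b) * z * (q * b)⁻¹ = a := by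
  calc (q * b) * z * (q * b)⁻¹ = q * (b * z * b⁻¹) * q⁻¹ := by group
    _ = a := by rw [conj_b_z p hb h2, conj_q_az p hq h1]

/-- an element conjugating `z` to `a` conjugates `Q` to `A` -/
theorem map_Q (p : Pair Q z A a) {h : G} (hh : h * z * h⁻¹ = a) {x : G} (hx : x ∈ Q) :
    h * x * h⁻¹ ∈ A := by
  obtain ⟨g, h1, -, h3, -⟩ := p.isConj
  have h4 := map_eq_of_conj p.lz (hh.trans h1.symm)
  rw [h3, ← h4]
  exact ⟨x, hx, rfl⟩

/-- the braid relation modulo `R` -/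
theorem braid (p : Pair Q z A a) {q b : G} (hq : q ∈ Q) (h1 : q * a = a * q * z) (hb : b ∈ A)
    (h2 : b * z = z * b * a) : b⁻¹ * ((q * b) * q * (q * b)⁻¹) ∈ RR Q A z a := by
  have h3 := conj_qb p hq h1 hb h2
  have h4 := map_Q p h3 hq
  rw [RR_symm]
  rcases Q_cases p.symm hb h2 h4 with h5 | h5
  · exfalso
    have h6 := (RR_le_cV p.symm h5).2
    -- `q b q b⁻¹ q⁻¹` commutes with `z`, so `q` commutes with `(q b)⁻¹ z (q b) = a z`
    have e1 : (q * b)⁻¹ * z * (q * b) = a * z := by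
      have e2 : q⁻¹ * z * q = z := by
        have := conj_q_z p (inv_mem hq)
        rwa [inv_inv] at this
      have e3 : b⁻¹ * z * b = a * z := by
        have := conj_b_az p hb h2
        calc b⁻¹ * z * b = b⁻¹ * (b * (a * z) * b⁻¹) * b := by rw [this]
          _ = a * z := by group
      calc (q * b)⁻¹ * z * (q * b) = b⁻¹ * (q⁻¹ * z * q) * b := by group
        _ = a * z := by rw [e2, e3]
    have e2 : q * (a * z) * q⁻¹ = a * z := by
      rw [← e1]
      calc q * ((q * b)⁻¹ * z * (q * b)) * q⁻¹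
          = (q * b)⁻¹ * (((q * b) * q * (q * b)⁻¹) * z) * ((q * b) * q * (q * b)⁻¹)⁻¹ * (q * b) := by group
        _ = (q * b)⁻¹ * (z * ((q * b) * q * (q * b)⁻¹)) * ((q * b) * q * (q * b)⁻¹)⁻¹ * (q * b) := by rw [h6]
        _ = (q * b)⁻¹ * z * (q * b) := by group
    rw [conj_q_az p hq h1] at e2
    exact p.lz.z_ne (mul_eq_left.1 e2.symm)
  · exact h5

/-- `Q` normalises `V` -/
theorem Q_le_normV (p : Pair Q z A a) :
    Q ≤ Subgroup.normalizer ((Subgroup.closure ({z, a} : Set G) : Subgroup G) : Set G) := by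
  have key : ∀ q ∈ Q, ∀ v ∈ Subgroup.closure ({z, a} : Set G), q * v * q⁻¹ ∈ Subgroup.closure ({z, a} : Set G) := by
    intro q hq v hv
    have hvQ : v ∈ Q := by
      rcases (mem_V p).1 hv with rfl | rfl | rfl | rfl
      · exact one_mem _
      · exact p.lz.z_mem
      · exact p.a_mem
      · exact mul_mem p.a_mem p.lz.z_mem
    have hzV : z ∈ Subgroup.closure ({z, a} : Set G) := Subgroup.subset_closure (by simp)
    rcases p.lz.comm q hq v hvQ with h1 | h1
    · rw [h1, mul_inv_cancel_right]; exact hv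
    · rw [h1]
      have h2 : q * z = z * q := p.lz.comm_z q hq
      have h3 : v * q * z * q⁻¹ = v * z := by
        calc v * q * z * q⁻¹ = v * (q * z) * q⁻¹ := by group
          _ = v * (z * q) * q⁻¹ := by rw [h2]
          _ = v * z := by group
      rw [h3]; exact mul_mem hv hzV
  intro q hq
  rw [Subgroup.mem_normalizer_iff]
  intro x
  refine ⟨fun hx => key q hq x hx, fun hx => ?_⟩
  have h1 := key q⁻¹ (inv_mem hq) _ hx
  have h2 : q⁻¹ * (q * x * q⁻¹) * q⁻¹⁻¹ = x := by group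
  rwa [h2] at h1

theorem V_symm : Subgroup.closure ({z, a} : Set G) = Subgroup.closure ({a, z} : Set G) := by
  rw [Set.pair_comm]

theorem A_le_normV (p : Pair Q z A a) :
    A ≤ Subgroup.normalizer ((Subgroup.closure ({z, a} : Set G) : Subgroup G) : Set G) := by
  rw [V_symm]; exact Q_le_normV p.symm

theorem X_le_normV (p : Pair Q z A a) :
    Q ⊔ A ≤ Subgroup.normalizer ((Subgroup.closure ({z, a} : Set G) : Subgroup G) : Set G) :=
  sup_le (Q_le_normV p) (A_le_normV p)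

/-- the three involutions of `V` are permuted by `N_G(V)` -/
theorem conj_mem_T (p : Pair Q z A a) {n v : G}
    (hn : n ∈ Subgroup.normalizer ((Subgroup.closure ({z, a} : Set G) : Subgroup G) : Set G))
    (hv : v = z ∨ v = a ∨ v = a * z) : n * v * n⁻¹ = z ∨ n * v * n⁻¹ = a ∨ n * v * n⁻¹ = a * z := by
  have h1 : v ∈ Subgroup.closure ({z, a} : Set G) := (mem_V p).2 (Or.inr hv)
  have h2 := (Subgroup.mem_normalizer_iff.1 hn v).1 h1
  have hv1 : v ≠ 1 := by
    rcases hv with rfl | rfl | rfl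
    · exact p.lz.z_ne
    · exact p.la.z_ne
    · intro h
      apply p.ne
      rw [eq_inv_of_mul_eq_one_left h, p.lz.z_inv]
  rcases (mem_V p).1 h2 with h3 | h3
  · exfalso; apply hv1
    calc v = n⁻¹ * (n * v * n⁻¹) * n := by group
      _ = 1 := by rw [h3]; group
  · exact h3

/-- every element of `X` is congruent to one of six elements modulo `R` -/
theorem X_cases (p : Pair Q z A a) {q b : G} (hq : q ∈ Q) (h1 : q * a = a * q * z) (hb : b ∈ A)
    (h2 : b * z = z * b * a) {x : G} (hx : x ∈ Q ⊔ A) : ∃ w ∈ reps q b, w⁻¹ * x ∈ RR Q A z a := by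
  classical
  set X : Subgroup G := Q ⊔ A with hX
  set R := RR Q A z a with hR
  have hRX : R ≤ X := R_le_X Q A z a
  have hQX : Q ≤ X := le_sup_left
  have hAX : A ≤ X := le_sup_right
  have hnorm : (R.subgroupOf X).Normal := by
    refine ⟨fun r hr x => ?_⟩
    rw [Subgroup.mem_subgroupOf] at hr ⊢
    exact R_conj_X p x.2 hr
  set π := QuotientGroup.mk' (R.subgroupOf X) with hπ
  have hπ1 : ∀ x : X, (x : G) ∈ R → π x = 1 := by
    intro x hx
    rw [hπ, QuotientGroup.mk'_apply, QuotientGroup.eq_one_iff]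
    exact Subgroup.mem_subgroupOf.2 hx
  have hπ1' : ∀ x : X, π x = 1 → (x : G) ∈ R := by
    intro x hx
    rw [hπ, QuotientGroup.mk'_apply, QuotientGroup.eq_one_iff] at hx
    exact Subgroup.mem_subgroupOf.1 hx
  set u := π ⟨q, hQX hq⟩ with hu
  set v := π ⟨b, hAX hb⟩ with hv
  have huu : u * u = 1 := by
    rw [hu, ← map_mul]
    apply hπ1
    show q * q ∈ R
    rcases p.lz.sq q hq with h3 | h3
    · rw [h3]; exact one_mem _
    · rw [h3]; exact mem_RR_of_Q p.lz.z_mem p.comm_za.symm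
  have hvv : v * v = 1 := by
    rw [hv, ← map_mul]
    apply hπ1
    show b * b ∈ R
    rcases p.la.sq b hb with h3 | h3
    · rw [h3]; exact one_mem _
    · rw [h3]; exact mem_RR_of_Q p.a_mem rfl
  have hui : u⁻¹ = u := inv_eq_of_mul_eq_one_left huu
  have hvi : v⁻¹ = v := inv_eq_of_mul_eq_one_left hvv
  have hbr : v * u * v = u * v * u := by
    have h3 : π (⟨b, hAX hb⟩⁻¹ * ((⟨q, hQX hq⟩ * ⟨b, hAX hb⟩) * ⟨q, hQX hq⟩ * (⟨q, hQX hq⟩ * ⟨b, hAX hb⟩)⁻¹)) = 1 :=
      hπ1 _ (braid p hq h1 hb h2)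
    simp only [map_mul, map_inv] at h3
    rw [← hu, ← hv] at h3
    -- v⁻¹ * ((u * v) * u * (u*v)⁻¹) = 1
    have h4 : u * v * u * (u * v)⁻¹ = v := by
      rw [eq_comm]; exact inv_mul_eq_one.1 h3
    have h5 : u * v * u = v * (u * v) := mul_inv_eq_iff_eq_mul.1 h4
    rw [h5]; group
  -- the six elements are closed under left multiplication
  have hSu : ∀ y ∈ ({1, u, v, u * v, v * u, u * v * u} : Set (X ⧸ R.subgroupOf X)),
      u * y ∈ ({1, u, v, u * v, v * u, u * v * u} : Set (X ⧸ R.subgroupOf X)) := by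
    intro y hy
    simp only [Set.mem_insert_iff, Set.mem_singleton_iff] at hy ⊢
    rcases hy with rfl | rfl | rfl | rfl | rfl | rfl
    · right; left; exact mul_one _
    · left; exact huu
    · right; right; right; left; rfl
    · right; right; left; rw [← mul_assoc, huu, one_mul]
    · right; right; right; right; right; rw [← mul_assoc]
    · right; right; right; right; left; rw [← mul_assoc, ← mul_assoc, huu, one_mul]
  have hSv : ∀ y ∈ ({1, u, v, u * v, v * u, u * v * u} : Set (X ⧸ R.subgroupOf X)),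
      v * y ∈ ({1, u, v, u * v, v * u, u * v * u} : Set (X ⧸ R.subgroupOf X)) := by
    intro y hy
    simp only [Set.mem_insert_iff, Set.mem_singleton_iff] at hy ⊢
    rcases hy with rfl | rfl | rfl | rfl | rfl | rfl
    · right; right; left; exact mul_one _
    · right; right; right; right; left; rfl
    · left; exact hvv
    · right; right; right; right; right; rw [← mul_assoc, hbr]
    · right; left; rw [← mul_assoc, hvv, one_mul]
    · right; right; right; left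
      rw [← hbr, ← mul_assoc, ← mul_assoc, hvv, one_mul]
  have hmem : ∀ y : X, (y : G) ∈ Q ∨ (y : G) ∈ A → π y = 1 ∨ π y = u ∨ π y = v := by
    rintro y (hy | hy)
    · rcases Q_cases p hq h1 hy with h3 | h3
      · left; exact hπ1 _ h3
      · right; left
        have h4 : π (⟨q, hQX hq⟩⁻¹ * y) = 1 := hπ1 _ h3
        rw [map_mul, map_inv] at h4
        exact (inv_mul_eq_one.1 h4).symm
    · have hb' := Q_cases p.symm hb h2 hy
      rw [← RR_symm] at hb'
      rcases hb' with h3 | h3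
      · left; exact hπ1 _ h3
      · right; right
        have h4 : π (⟨b, hAX hb⟩⁻¹ * y) = 1 := hπ1 _ h3
        rw [map_mul, map_inv] at h4
        exact (inv_mul_eq_one.1 h4).symm
  have hS : ∀ (y : G) (hy : y ∈ X), π ⟨y, hy⟩ ∈ ({1, u, v, u * v, v * u, u * v * u} : Set (X ⧸ R.subgroupOf X)) := by
    intro y hy
    have hy' : y ∈ Subgroup.closure ((Q : Set G) ∪ A) := by rw [← Subgroup.sup_eq_closure]; exact hy
    have hXc : ∀ w, w ∈ Subgroup.closure ((Q : Set G) ∪ A) → w ∈ X := by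
      intro w hw; rw [hX, Subgroup.sup_eq_closure]; exact hw
    have key : ∀ hy : y ∈ X, π ⟨y, hy⟩ ∈ ({1, u, v, u * v, v * u, u * v * u} : Set (X ⧸ R.subgroupOf X)) := by
      clear hy
      induction hy' using Subgroup.closure_induction_left with
      | one => intro _; left; exact map_one π
      | mul_left x hx y hy ih =>
        intro hxy
        have hxX : x ∈ X := hx.elim (fun h => hQX h) (fun h => hAX h)
        have e : π ⟨x * y, hxy⟩ = π ⟨x, hxX⟩ * π ⟨y, hXc y hy⟩ := by rw [← map_mul]; rfl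
        rw [e]
        have h3 := ih (hXc y hy)
        rcases hmem ⟨x, hxX⟩ hx with h4 | h4 | h4
        · rw [h4, one_mul]; exact h3
        · rw [h4]; exact hSu _ h3
        · rw [h4]; exact hSv _ h3
      | inv_mul_cancel x hx y hy ih =>
        intro hxy
        have hxX : x ∈ X := hx.elim (fun h => hQX h) (fun h => hAX h)
        have e : π ⟨x⁻¹ * y, hxy⟩ = π ⟨x⁻¹, inv_mem hxX⟩ * π ⟨y, hXc y hy⟩ := by rw [← map_mul]; rfl
        rw [e]
        have h3 := ih (hXc y hy)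
        rcases hmem ⟨x⁻¹, inv_mem hxX⟩ (hx.imp (fun h => inv_mem h) (fun h => inv_mem h)) with h4 | h4 | h4
        · rw [h4, one_mul]; exact h3
        · rw [h4]; exact hSu _ h3
        · rw [h4]; exact hSv _ h3
    exact key hy
  -- back to `G`
  have hback : ∀ w : X, π ⟨x, hx⟩ = π w → (w : G)⁻¹ * x ∈ R := by
    intro w hw
    have h3 : π (w⁻¹ * ⟨x, hx⟩) = 1 := by rw [map_mul, map_inv, hw, inv_mul_cancel]
    exact hπ1' _ h3
  have h3 := hS x hx
  simp only [Set.mem_insert_iff, Set.mem_singleton_iff] at h3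
  rcases h3 with h3 | h3 | h3 | h3 | h3 | h3
  · exact ⟨1, by simp [reps], hback 1 (by rw [h3, map_one])⟩
  · exact ⟨q, by simp [reps], hback ⟨q, hQX hq⟩ h3⟩
  · exact ⟨b, by simp [reps], hback ⟨b, hAX hb⟩ h3⟩
  · exact ⟨q * b, by simp [reps], hback (⟨q, hQX hq⟩ * ⟨b, hAX hb⟩) (by rw [h3, map_mul])⟩
  · exact ⟨b * q, by simp [reps], hback (⟨b, hAX hb⟩ * ⟨q, hQX hq⟩) (by rw [h3, map_mul])⟩
  · exact ⟨q * b * q, by simp [reps], hback (⟨q, hQX hq⟩ * ⟨b, hAX hb⟩ * ⟨q, hQX hq⟩)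
      (by rw [h3, map_mul, map_mul])⟩

/-- `X ∩ C_G(V) ≤ R` -/
theorem mem_R_of_mem_X (p : Pair Q z A a) {x : G} (hx : x ∈ Q ⊔ A) (hxz : x * z = z * x)
    (hxa : x * a = a * x) : x ∈ RR Q A z a := by
  obtain ⟨q, hq, h1⟩ := exists_q0 p
  obtain ⟨b, hb, h2⟩ := exists_q0 p.symm
  obtain ⟨w, hw, hwx⟩ := X_cases p hq h1 hb h2 hx
  obtain ⟨h3, h4⟩ := RR_le_cV p hwx
  -- `w` commutes with `z`, `a`
  have hwz : w * z * w⁻¹ = z := by
    have e : w = x * (w⁻¹ * x)⁻¹ := by group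
    have h3' := inv_comm h3
    calc w * z * w⁻¹ = (x * (w⁻¹ * x)⁻¹) * z * (x * (w⁻¹ * x)⁻¹)⁻¹ := by rw [← e]
      _ = x * ((w⁻¹ * x)⁻¹ * z) * (w⁻¹ * x) * x⁻¹ := by group
      _ = (x * z) * x⁻¹ := by rw [h3']; group
      _ = z := by rw [hxz]; group
  have hwa : w * a * w⁻¹ = a := by
    have e : w = x * (w⁻¹ * x)⁻¹ := by group
    have h4' := inv_comm h4
    calc w * a * w⁻¹ = (x * (w⁻¹ * x)⁻¹) * a * (x * (w⁻¹ * x)⁻¹)⁻¹ := by rw [← e]
      _ = x * ((w⁻¹ * x)⁻¹ * a) * (w⁻¹ * x) * x⁻¹ := by group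
      _ = (x * a) * x⁻¹ := by rw [h4']; group
      _ = a := by rw [hxa]; group
  have hne1 : a * z ≠ a := fun h => p.lz.z_ne (mul_eq_left.1 h)
  have hne2 : a * z ≠ z := fun h => p.la.z_ne (mul_eq_right.1 h)
  simp only [reps, Set.mem_insert_iff, Set.mem_singleton_iff] at hw
  rcases hw with rfl | rfl | rfl | rfl | rfl | rfl
  · rwa [inv_one, one_mul] at hwx
  · exact absurd (conj_q_a p hq h1 ▸ hwa) hne1
  · exact absurd (conj_b_z p hb h2 ▸ hwz) hne2
  · exact absurd ((conj_qb p hq h1 hb h2).symm.trans hwz) p.ne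
  · exfalso
    apply hne2
    rw [← conj_b_z p hb h2]
    calc b * z * b⁻¹ = b * (q * z * q⁻¹) * b⁻¹ := by rw [conj_q_z p hq]
      _ = b * q * z * (b * q)⁻¹ := by group
      _ = z := hwz
  · exfalso
    apply p.ne
    rw [← conj_qb p hq h1 hb h2]
    calc q * b * z * (q * b)⁻¹ = q * b * (q * z * q⁻¹) * (q * b)⁻¹ := by rw [conj_q_z p hq]
      _ = q * b * q * z * (q * b * q)⁻¹ := by group
      _ = z := hwz

/-- `X ∩ C_G(V) = R` -/
theorem X_inf_cV (p : Pair Q z A a) : (Q ⊔ A) ⊓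
    Subgroup.centralizer ((Subgroup.closure ({z, a} : Set G) : Subgroup G) : Set G) = RR Q A z a := by
  apply le_antisymm
  · rintro x ⟨hx, hxV⟩
    obtain ⟨h1, h2⟩ := mem_cV.1 hxV
    exact mem_R_of_mem_X p hx h1 h2
  · intro x hx
    exact ⟨R_le_X Q A z a hx, mem_cV.2 (RR_le_cV p hx)⟩

end Cfsg.Agent.H823
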