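import Mathlib
import Cfsg.Agent.KFacts.TwF4.CentO
import Cfsg.Agent.H42.Deg.F4Levi

/-!
# The centraliser in `C(X_5)` of an element of order three of `²F₄(8)` (helper823, task 1960, S5936)
-/

set_option autoImplicit false
set_option linter.unusedSectionVars false
set_option linter.unusedSimpArgs false

namespace Cfsg.Agent.H823.Ree8D

open Cfsg.Agent.SplitTwo Cfsg.Agent.SplitTwo.ZS Cfsg.Agent.TitsThree.RankTwoZ Cfsg.Agent.SplitTwo.RootSysZ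
open Cfsg.Agent.KFacts.TwF4 Cfsg.Agent.KFacts.TwF4.Arc Cfsg.Agent.KFacts.TwF4.SylU Cfsg.Agent.KFacts.TwF4.TorEx
open Cfsg.Agent.KFacts.TwF4.Full
open Cfsg.Agent.H42.Deg.F4

universe u

variable {F : Type*} [Field F] {σ : F →+* F} {G : Type u} [Group G] (S : Full σ G)

/-- the element of order three -/
def dd : G := S.o 4 1 * S.o 0 1

/-- the elements of `NO` that commute with `dd` -/
def gE (u t s : F) : G := S.e 1 0 u * S.o 1 t * S.e 2 (t ^ 2) (u * t + u * σ u) * S.o 2 s *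
  S.e 3 (t ^ 2 + u) (t ^ 3 + σ u * t ^ 2 + u * σ u) * S.o 3 (t + σ u) * S.e 4 0 u

theorem as {a b c : G} (h : a * b = c) (w : G) : a * (b * w) = c * w := by rw [← mul_assoc, h]

theorem nf_congr {x8 x1 : G} {a7 a7' p6 p6' u6 u6' a5 a5' p4 p4' u4 u4' a3 a3' u2 u2' : F} (h7 : a7 = a7')
    (h6 : p6 = p6') (h6' : u6 = u6') (h5 : a5 = a5') (h4 : p4 = p4') (h4' : u4 = u4') (h3 : a3 = a3') (h2 : u2 = u2') :
    x8 * (S.o 3 a7 * (S.e 3 p6 u6 * (S.o 2 a5 * (S.e 2 p4 u4 * (S.o 1 a3 * (S.e 1 0 u2 * x1)))))) =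
      x8 * (S.o 3 a7' * (S.e 3 p6' u6' * (S.o 2 a5' * (S.e 2 p4' u4' * (S.o 1 a3' * (S.e 1 0 u2' * x1)))))) := by
  subst h7 h6 h6' h5 h4 h4' h3 h2
  rfl

theorem r78 (t q v : F) : S.o 3 t * S.e 4 q v = S.e 4 q v * S.o 3 t := S.o_e1 3 t q v

include S in
theorem four (hs : ∀ x : F, σ x ^ 2 = x) (x : F) : x ^ 4 = σ x := by
  have h1 := hs (σ x)
  rw [S.sq] at h1
  rw [← h1]; ring

/-- the word after the collection -/
theorem coll (hs : ∀ x : F, σ x ^ 2 = x) (t u s : F) :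
    S.o 0 1 * (S.e 4 0 u * S.o 3 t * S.e 3 (t ^ 2) (u * t + u * σ u) * S.o 2 s *
      S.e 2 (t ^ 2 + u) (t ^ 3 + σ u * t ^ 2 + u * σ u) * S.o 1 (t + σ u) * S.e 1 0 u) = gE S u t s * S.o 0 1 := by
  unfold gE
  simp only [mul_assoc, S.rel.r12, S.rel.r13, S.rel.r14, S.rel.r15, S.rel.r16, S.rel.r17, S.rel.r18, S.rel.r23,
    S.rel.r24, S.rel.r25, S.rel.r26, S.rel.r27, S.rel.r28, S.rel.r34, S.rel.r35, S.rel.r36, S.rel.r37, S.rel.r38,
    S.rel.r45, S.rel.r46, S.rel.r47, S.rel.r48, S.rel.r56, S.rel.r57, S.rel.r58, S.rel.r67, S.rel.r68,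
    as (S.rel.r12 _ _ _), as (S.rel.r13 _ _), as (S.rel.r14 _ _ _), as (S.rel.r15 _ _), as (S.rel.r16 _ _ _),
    as (S.rel.r17 _ _), as (S.rel.r18 _ _ _), as (S.rel.r23 _ _ _), as (S.rel.r24 _ _ _ _), as (S.rel.r25 _ _ _),
    as (S.rel.r26 _ _ _ _), as (S.rel.r27 _ _ _), as (S.rel.r28 _ _ _ _), as (S.rel.r34 _ _ _), as (S.rel.r35 _ _),
    as (S.rel.r36 _ _ _), as (S.rel.r37 _ _), as (S.rel.r38 _ _ _), as (S.rel.r45 _ _ _), as (S.rel.r46 _ _ _ _),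
    as (S.rel.r47 _ _ _), as (S.rel.r48 _ _ _ _), as (S.rel.r56 _ _ _), as (S.rel.r57 _ _), as (S.rel.r58 _ _ _),
    as (S.rel.r67 _ _ _), as (S.rel.r68 _ _ _ _), r78, as (r78 _ _ _ _),
    S.rel.m1, S.rel.m2, S.rel.m3, S.rel.m4, S.rel.m5, S.rel.m6, S.rel.m7, S.rel.m8,
    as (S.rel.m1 _ _), as (S.rel.m2 _ _ _ _), as (S.rel.m3 _ _), as (S.rel.m4 _ _ _ _), as (S.rel.m5 _ _),
    as (S.rel.m6 _ _ _ _), as (S.rel.m7 _ _), as (S.rel.m8 _ _ _ _),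
    map_zero, map_one, mul_zero, zero_mul, mul_one, one_mul, add_zero, zero_add, S.o_zero, S.e_zero]
  have h2 := S.two
  have h4 := four S hs t
  have h4u := S.sq u
  have hst := hs t
  have hsu := hs u
  refine nf_congr S ?_ ?_ ?_ ?_ ?_ ?_ ?_ ?_
  · ring
  · ring
  · rw [map_pow]
    linear_combination (u * t - t ^ 3 - σ u * t ^ 2) * h2 + u * hst
  · linear_combination (u ^ 2) * h2 + h4u - h4
  · linear_combination u * h2
  · rw [_root_.map_add, map_pow]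
    linear_combination (3 * u * σ u + 2 * σ u * t ^ 2 + u * t + t ^ 3) * h2 + (t ^ 2 + u) * hst
  · rw [map_pow]
    linear_combination (2 * σ u + t) * h2 + hst
  · linear_combination (2 * u + t ^ 2) * h2

theorem dd_eq : dd S = S.o 0 1 * S.n1 := by
  have h1 : S.o 0 1 * S.o 0 1 = 1 := by rw [S.o_add, char2 S, S.o_zero]
  rw [dd, S.n1_word]
  calc S.o 4 1 * S.o 0 1 = (S.o 0 1 * S.o 0 1) * (S.o 4 1 * S.o 0 1) := by rw [h1, one_mul]
    _ = _ := by group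

theorem n1_inv : S.n1⁻¹ = S.n1 := inv_eq_of_mul_eq_one_left S.n1_sq

/-- conjugation by `n1` -/
theorem n1_o' (a : ZMod 8) (t : F) : S.n1 * S.o a t = S.o (4 - a) t * S.n1 := by
  rw [← S.n1_o, inv_mul_cancel_right]

theorem n1_e'' (a : ZMod 8) (p u : F) : S.n1 * S.e a p u = S.e (5 - a) p u * S.n1 := by
  rw [← S.n1_e, inv_mul_cancel_right]

/-- **D1** -/
theorem gE_comm (hs : ∀ x : F, σ x ^ 2 = x) (u t s : F) : gE S u t s * dd S = dd S * gE S u t s := by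
  have h1 : S.n1 * gE S u t s = (S.e 4 0 u * S.o 3 t * S.e 3 (t ^ 2) (u * t + u * σ u) * S.o 2 s *
      S.e 2 (t ^ 2 + u) (t ^ 3 + σ u * t ^ 2 + u * σ u) * S.o 1 (t + σ u) * S.e 1 0 u) * S.n1 := by
    unfold gE
    have a1 := n1_e'' S 1 0 u
    have a2 := n1_o' S 1 t
    have a3 := n1_e'' S 2 (t ^ 2) (u * t + u * σ u)
    have a4 := n1_o' S 2 s
    have a5 := n1_e'' S 3 (t ^ 2 + u) (t ^ 3 + σ u * t ^ 2 + u * σ u)
    have a6 := n1_o' S 3 (t + σ u)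
    have a7 := n1_e'' S 4 0 u
    rw [show (5 - 1 : ZMod 8) = 4 by decide] at a1
    rw [show (4 - 1 : ZMod 8) = 3 by decide] at a2
    rw [show (5 - 2 : ZMod 8) = 3 by decide] at a3
    rw [show (4 - 2 : ZMod 8) = 2 by decide] at a4
    rw [show (5 - 3 : ZMod 8) = 2 by decide] at a5
    rw [show (4 - 3 : ZMod 8) = 1 by decide] at a6
    rw [show (5 - 4 : ZMod 8) = 1 by decide] at a7
    simp only [← mul_assoc]
    rw [a1, mul_assoc _ S.n1, a2, ← mul_assoc, mul_assoc _ S.n1, a3, ← mul_assoc, mul_assoc _ S.n1, a4, ← mul_assoc,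
      mul_assoc _ S.n1, a5, ← mul_assoc, mul_assoc _ S.n1, a6, ← mul_assoc, mul_assoc _ S.n1, a7, ← mul_assoc]
  rw [dd_eq, mul_assoc (S.o 0 1), h1, ← mul_assoc (S.o 0 1), coll S hs]
  simp only [mul_assoc]

end Cfsg.Agent.H823.Ree8D
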