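import Mathlib
import Cfsg.Agent.H823.Ree8D

/-!
# The centraliser in `C(X_5)` of an element of order three of `²F₄(8)`, II (helper823, task 1960, S5936)
-/

set_option autoImplicit false
set_option linter.unusedSectionVars false
set_option linter.unusedSimpArgs false

namespace Cfsg.Agent.H823.Ree8D

open Cfsg.Agent.SplitTwo Cfsg.Agent.SplitTwo.ZS Cfsg.Agent.TitsThree.RankTwoZ Cfsg.Agent.SplitTwo.RootSysZ
open Cfsg.Agent.KFacts.TwF4 Cfsg.Agent.KFacts.TwF4.Arc Cfsg.Agent.KFacts.TwF4.SylU Cfsg.Agent.KFacts.TwF4.TorEx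
open Cfsg.Agent.KFacts.TwF4.Full
open Cfsg.Agent.H42.Deg.F4

universe u

variable {F : Type*} [Field F] {σ : F →+* F} {G : Type u} [Group G] (S : Full σ G)

theorem uniq46 {q v s p u q' v' s' p' u' : F}
    (h : S.e 3 q v * (S.o 2 s * S.e 2 p u) = S.e 3 q' v' * (S.o 2 s' * S.e 2 p' u')) :
    (q = q' ∧ v = v') ∧ s = s' ∧ p = p' ∧ u = u' := by
  have Z8 := S.zsys8
  have m45 : ∀ s p u, S.o 2 s * S.e 2 p u ∈ J S.XZ 4 5 := fun s p u =>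
    mul_mem (mem_J (S.mX5 s) (by norm_num) le_rfl) (mem_J (S.mX4 p u) le_rfl (by norm_num))
  have h1 : (S.e 3 q' v')⁻¹ * S.e 3 q v = (S.o 2 s' * S.e 2 p' u') * (S.o 2 s * S.e 2 p u)⁻¹ := by
    rw [inv_mul_eq_iff_eq_mul, ← mul_assoc, ← h, mul_inv_cancel_right]
  have h2 : (S.e 3 q' v')⁻¹ * S.e 3 q v = 1 := by
    refine Z8.inter' (k := 6) (mul_mem (inv_mem (S.mX6 _ _)) (S.mX6 _ _)) ?_
    rw [h1]
    exact J_mono (by norm_num) (by norm_num) (mul_mem (m45 _ _ _) (inv_mem (m45 _ _ _)))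
  have h3 : S.e 3 q v = S.e 3 q' v' := (inv_mul_eq_one.1 h2).symm
  rw [h3] at h
  have h4 := mul_left_cancel h
  have h5 : (S.o 2 s')⁻¹ * S.o 2 s = S.e 2 p' u' * (S.e 2 p u)⁻¹ := by
    rw [inv_mul_eq_iff_eq_mul, ← mul_assoc, ← h4, mul_inv_cancel_right]
  have h6 : (S.o 2 s')⁻¹ * S.o 2 s = 1 := by
    refine Z8.inter' (k := 5) (mul_mem (inv_mem (S.mX5 _)) (S.mX5 _)) ?_
    rw [h5]
    exact mem_J (mul_mem (S.mX4 _ _) (inv_mem (S.mX4 _ _))) (by norm_num) (by norm_num)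
  have h7 : S.o 2 s = S.o 2 s' := (inv_mul_eq_one.1 h6).symm
  rw [h7] at h4
  exact ⟨S.injE _ _ _ _ _ h3, S.injO _ h7, S.injE _ _ _ _ _ (mul_left_cancel h4)⟩

/-- the elements of `X_4 X_5 X_6` that commute with `dd` -/
theorem of_J46 {y : G} (hy : y ∈ J S.XZ 4 6) (h : y * dd S = dd S * y) : ∃ s, y = S.o 2 s := by
  have Z8 := S.zsys8
  obtain ⟨x4, h4, y', hy', rfl⟩ := Z8.split_ll (a := 4) (b := 6) (by norm_num) (by norm_num) hy
  obtain ⟨x5, h5, y'', hy'', rfl⟩ := Z8.split_ll (a := 4 + 1) (b := 6) (by norm_num) (by norm_num) hy'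
  obtain ⟨p, u, rfl⟩ := S.X4 h4
  obtain ⟨s, rfl⟩ := S.X5 h5
  obtain ⟨q, v, rfl⟩ := S.X6 (mem_of_J_self hy'' (by norm_num))
  have a3 := n1_e'' S 2 p u
  have a4 := n1_o' S 2 s
  have a5 := n1_e'' S 3 q v
  rw [show (5 - 2 : ZMod 8) = 3 by decide] at a3
  rw [show (4 - 2 : ZMod 8) = 2 by decide] at a4
  rw [show (5 - 3 : ZMod 8) = 2 by decide] at a5
  have h1 : S.n1 * (S.e 2 p u * (S.o 2 s * S.e 3 q v)) = (S.e 3 p u * (S.o 2 s * S.e 2 q v)) * S.n1 := by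
    rw [← mul_assoc, a3, mul_assoc, ← mul_assoc S.n1, a4, mul_assoc (S.o 2 s), a5]
    simp only [mul_assoc]
  have h2 : S.o 0 1 * (S.e 3 p u * (S.o 2 s * S.e 2 q v)) = (S.e 2 p u * (S.o 2 s * S.e 3 q v)) * S.o 0 1 := by
    rw [dd_eq, mul_assoc (S.o 0 1), h1, ← mul_assoc (S.o 0 1), ← mul_assoc _ (S.o 0 1)] at h
    exact (mul_right_cancel h).symm
  simp only [mul_assoc, S.rel.r12, S.rel.r13, S.rel.r14, S.rel.r15, S.rel.r16, S.rel.r17, S.rel.r18, S.rel.r23,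
    S.rel.r24, S.rel.r25, S.rel.r26, S.rel.r27, S.rel.r28, S.rel.r34, S.rel.r35, S.rel.r36, S.rel.r37, S.rel.r38,
    S.rel.r45, S.rel.r46, S.rel.r47, S.rel.r48, S.rel.r56, S.rel.r57, S.rel.r58, S.rel.r67, S.rel.r68,
    as (S.rel.r12 _ _ _), as (S.rel.r13 _ _), as (S.rel.r14 _ _ _), as (S.rel.r15 _ _), as (S.rel.r16 _ _ _),
    as (S.rel.r17 _ _), as (S.rel.r18 _ _ _), as (S.rel.r23 _ _ _), as (S.rel.r24 _ _ _ _), as (S.rel.r25 _ _ _),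
    as (S.rel.r26 _ _ _ _), as (S.rel.r27 _ _ _), as (S.rel.r28 _ _ _ _), as (S.rel.r34 _ _ _), as (S.rel.r35 _ _),
    as (S.rel.r36 _ _ _), as (S.rel.r37 _ _), as (S.rel.r38 _ _ _), as (S.rel.r45 _ _ _), as (S.rel.r46 _ _ _ _),
    as (S.rel.r47 _ _ _), as (S.rel.r48 _ _ _ _), as (S.rel.r56 _ _ _), as (S.rel.r57 _ _), as (S.rel.r58 _ _ _),
    as (S.rel.r67 _ _ _), as (S.rel.r68 _ _ _ _), r78, as (r78 _ _ _ _),
    S.rel.m1, S.rel.m2, S.rel.m3, S.rel.m4, S.rel.m5, S.rel.m6, S.rel.m7, S.rel.m8,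
    as (S.rel.m1 _ _), as (S.rel.m2 _ _ _ _), as (S.rel.m3 _ _), as (S.rel.m4 _ _ _ _), as (S.rel.m5 _ _),
    as (S.rel.m6 _ _ _ _), as (S.rel.m7 _ _), as (S.rel.m8 _ _ _ _),
    map_zero, map_one, mul_zero, zero_mul, mul_one, one_mul, add_zero, zero_add, S.o_zero, S.e_zero] at h2
  have h3 : S.e 3 p u * (S.o 2 s * (S.e 2 q (p * σ p + u + v) * (S.o 1 (σ p) * S.e 1 0 (p + q)))) =
      S.e 3 q v * (S.o 2 (p * q + s) * S.e 2 p u) :=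
    mul_right_cancel (b := S.o 0 1) (by simpa only [mul_assoc] using h2)
  have m3 : ∀ {k : ℤ} {x : G}, x ∈ S.XZ k → 3 ≤ k → k ≤ 6 → x ∈ J S.XZ 3 6 := fun hx h1 h2 => mem_J hx h1 h2
  have m4 : ∀ {k : ℤ} {x : G}, x ∈ S.XZ k → 4 ≤ k → k ≤ 6 → x ∈ J S.XZ 4 6 := fun hx h1 h2 => mem_J hx h1 h2
  have e2 : S.e 1 0 (p + q) = 1 := by
    refine Z8.inter 2 _ (S.mX2 _ _) ?_
    have e : S.e 1 0 (p + q) = (S.e 3 p u * (S.o 2 s * (S.e 2 q (p * σ p + u + v) * S.o 1 (σ p))))⁻¹ *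
        (S.e 3 q v * (S.o 2 (p * q + s) * S.e 2 p u)) := by
      rw [← h3]; group
    rw [e]
    refine J_mono (by norm_num) (by norm_num) (mul_mem (inv_mem (mul_mem (m3 (S.mX6 _ _) (by norm_num) (by norm_num))
      (mul_mem (m3 (S.mX5 _) (by norm_num) (by norm_num)) (mul_mem (m3 (S.mX4 _ _) (by norm_num) (by norm_num))
      (m3 (S.mX3 _) (by norm_num) (by norm_num)))))) (mul_mem (m3 (S.mX6 _ _) (by norm_num) (by norm_num))
      (mul_mem (m3 (S.mX5 _) (by norm_num) (by norm_num)) (m3 (S.mX4 _ _) (by norm_num) (by norm_num)))))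
  rw [e2, mul_one] at h3
  have e3 : S.o 1 (σ p) = 1 := by
    refine Z8.inter 3 _ (S.mX3 _) ?_
    have e : S.o 1 (σ p) = (S.e 3 p u * (S.o 2 s * S.e 2 q (p * σ p + u + v)))⁻¹ *
        (S.e 3 q v * (S.o 2 (p * q + s) * S.e 2 p u)) := by
      rw [← h3]; group
    rw [e]
    refine J_mono (by norm_num) (by norm_num) (mul_mem (inv_mem (mul_mem (m4 (S.mX6 _ _) (by norm_num) (by norm_num))
      (mul_mem (m4 (S.mX5 _) (by norm_num) (by norm_num)) (m4 (S.mX4 _ _) (by norm_num) (by norm_num)))))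
      (mul_mem (m4 (S.mX6 _ _) (by norm_num) (by norm_num))
      (mul_mem (m4 (S.mX5 _) (by norm_num) (by norm_num)) (m4 (S.mX4 _ _) (by norm_num) (by norm_num)))))
  rw [e3, mul_one] at h3
  have hp : p = 0 := (map_eq_zero σ).1 (S.o_eq_one e3)
  have hpq := (S.e_eq_one e2).2
  subst hp
  rw [zero_add] at hpq
  subst hpq
  obtain ⟨⟨-, h6⟩, -, -, h7⟩ := uniq46 S h3
  subst h6
  rw [map_zero, mul_zero, zero_add, add_eq_left] at h7
  subst h7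
  exact ⟨s, by rw [S.e_zero, S.e_zero, one_mul, mul_one]⟩

/-- the elements of `J 4 8` that commute with `dd` -/
theorem of_J48 {y : G} (hy : y ∈ J S.XZ 4 8) (h : y * dd S = dd S * y) : ∃ s, y = S.o 2 s := by
  refine of_J46 S ?_ h
  have h1 : S.n1 * y * S.n1⁻¹ ∈ J S.XZ 2 6 := S.n1_refl.mem_J hy (by norm_num) (by norm_num)
  have h2 := S.zsys8.conj_X (a := 2) (b := 6) (k := 1) (by norm_num) (by norm_num) (by norm_num) (S.mX1 1) h1
  have h3 : S.o 0 1 * (S.n1 * y * S.n1⁻¹) * (S.o 0 1)⁻¹ = y := by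
    have e : S.o 0 1 * (S.n1 * y * S.n1⁻¹) * (S.o 0 1)⁻¹ = dd S * y * (dd S)⁻¹ := by rw [dd_eq]; group
    rw [e, ← h, mul_inv_cancel_right]
  rw [h3] at h2
  exact S.zsys8.inter_J 2 hy h2 (by norm_num) (by norm_num) (by norm_num) (by norm_num) (Or.inl le_rfl) (Or.inr le_rfl)

/-- **D2** -/
theorem of_NO (hs : ∀ x : F, σ x ^ 2 = x) {r : G} (hr : r ∈ S.NO) (h : r * dd S = dd S * r) :
    ∃ u t s, r = gE S u t s := by
  obtain ⟨u, v, r', hr', rfl⟩ := S.mem_NO_iff.1 hr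
  obtain ⟨x3, hx3, r'', hr'', rfl⟩ := S.zsys8.split_ll (a := 3) (b := 7) (by norm_num) (by norm_num) hr'
  obtain ⟨t, rfl⟩ := S.X3 hx3
  obtain ⟨w, hw⟩ : ∃ w, w = S.e 2 (t ^ 2) (u * t + u * σ u) * S.o 2 0 *
    S.e 3 (t ^ 2 + u) (t ^ 3 + σ u * t ^ 2 + u * σ u) * S.o 3 (t + σ u) * S.e 4 0 u := ⟨_, rfl⟩
  have hw48 : w ∈ J S.XZ 4 8 := by
    rw [hw]
    exact mul_mem (mul_mem (mul_mem (mul_mem (mem_J (S.mX4 _ _) (by norm_num) (by norm_num))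
      (mem_J (S.mX5 _) (by norm_num) (by norm_num))) (mem_J (S.mX6 _ _) (by norm_num) (by norm_num)))
      (mem_J (S.mX7 _) (by norm_num) (by norm_num))) (mem_J (S.mX8 _ _) (by norm_num) (by norm_num))
  have hg : gE S u t 0 = S.e 1 0 u * S.o 1 t * w := by
    rw [hw]; unfold gE; simp only [mul_assoc]
  obtain ⟨y, hy⟩ : ∃ y, y = w⁻¹ * (r'' * S.e 4 0 v) := ⟨_, rfl⟩
  have hy48 : y ∈ J S.XZ 4 8 := by
    rw [hy]
    exact mul_mem (inv_mem hw48) (mul_mem (J_mono (by norm_num) (by norm_num) hr'')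
      (mem_J (S.mX8 _ _) (by norm_num) (by norm_num)))
  have hgy : S.e 1 0 u * (S.o 1 t * r'') * S.e 4 0 v = gE S u t 0 * y := by
    rw [hg, hy]; group
  rw [hgy] at h ⊢
  have hc := gE_comm S hs u t 0
  have h1 : y * dd S = dd S * y := by
    have h2 : gE S u t 0 * (y * dd S) = gE S u t 0 * (dd S * y) := by
      rw [← mul_assoc, h, ← mul_assoc, ← mul_assoc, hc]
    exact mul_left_cancel h2
  obtain ⟨s, hs'⟩ := of_J48 S hy48 h1
  refine ⟨u, t, s, ?_⟩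
  rw [hs']
  -- `o 2 s` commutes with the tail
  have c3 : S.e 3 (t ^ 2 + u) (t ^ 3 + σ u * t ^ 2 + u * σ u) * S.o 2 s =
      S.o 2 s * S.e 3 (t ^ 2 + u) (t ^ 3 + σ u * t ^ 2 + u * σ u) := (S.o_e1 2 s _ _).symm
  have c7 : S.o 3 (t + σ u) * S.o 2 s = S.o 2 s * S.o 3 (t + σ u) := (S.o_o1 2 s _).symm
  have c8 : S.e 4 0 u * S.o 2 s = S.o 2 s * S.e 4 0 u := by
    have h3 : S.o 2 s * S.e 4 0 u = S.e 4 0 u * S.o 2 s * S.e 3 0 (s * 0) := S.o_e2 2 s 0 u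
    rw [mul_zero, S.e_zero, mul_one] at h3
    exact h3.symm
  unfold gE
  rw [S.o_zero, mul_one, mul_assoc _ (S.e 4 0 u), c8, ← mul_assoc, mul_assoc _ (S.o 3 (t + σ u)), c7, ← mul_assoc,
    mul_assoc _ (S.e 3 _ _), c3, ← mul_assoc]

end Cfsg.Agent.H823.Ree8D
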