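import Mathlib
import Cfsg.Agent.H823.Ree8D2

/-!
# The centraliser in `C(X_5)` of an element of order three of `²F₄(8)`, III (helper823, task 1960, S5936)
-/

set_option autoImplicit false
set_option linter.unusedSectionVars false
set_option linter.unusedSimpArgs false

namespace Cfsg.Agent.H823.Ree8D

open Cfsg.Agent.SplitTwo Cfsg.Agent.SplitTwo.ZS Cfsg.Agent.TitsThree.RankTwoZ Cfsg.Agent.SplitTwo.RootSysZ
open Cfsg.Agent.KFacts.TwF4 Cfsg.Agent.KFacts.TwF4.Arc Cfsg.Agent.KFacts.TwF4.SylU Cfsg.Agent.KFacts.TwF4.TorEx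
open Cfsg.Agent.KFacts.TwF4.Full
open Cfsg.Agent.H42.Deg.F4

universe u

variable {F : Type*} [Field F] {σ : F →+* F} {G : Type u} [Group G] (S : Full σ G)

theorem hx (β : Fˣ) (s : F) : S.h β β * S.o 0 s = S.o 0 (β * β * s) * S.h β β := by
  rw [← mul_inv_eq_iff_eq_mul, S.h_o]
  rfl

theorem hx' (β : Fˣ) (s : F) : S.o 0 s * S.h β β = S.h β β * S.o 0 (((β⁻¹ : Fˣ) : F) * ((β⁻¹ : Fˣ) : F) * s) := by
  rw [hx]
  congr 2
  rw [Units.val_inv_eq_inv_val]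
  field_simp

theorem hn (β : Fˣ) : S.h β β * S.n1 = S.n1 * S.h β⁻¹ β⁻¹ := by
  have h1 := Full.n1_h S β⁻¹ β⁻¹
  rw [inv_inv] at h1
  rw [← h1, n1_inv]
  calc S.n1 * S.h β⁻¹ β⁻¹ * S.n1 * S.n1 = S.n1 * S.h β⁻¹ β⁻¹ * (S.n1 * S.n1) := by group
    _ = _ := by rw [S.n1_sq, mul_one]

theorem nx (s : F) : S.n1 * S.o 0 s = S.o 4 s * S.n1 := by
  have := n1_o' S 0 s
  rwa [sub_zero] at this

theorem xx (s t : F) : S.o 0 s * S.o 0 t = S.o 0 (s + t) := S.o_add 0 s t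

theorem key [Finite F] (β : Fˣ) : S.o 4 (β : F) =
    S.o 0 ((β⁻¹ : Fˣ) : F) * S.n1 * (S.h β β * S.o 0 ((β⁻¹ : Fˣ) : F)) := by
  obtain ⟨c, hc⟩ := exists_sq S β⁻¹
  have h1 := key_rel S c
  rw [hc, inv_inv] at h1
  exact h1

/-- uniqueness -/
theorem uniq [Finite F] {p q p' q' : F} {β β' : Fˣ}
    (h : S.o 0 p * S.n1 * (S.h β β * S.o 0 q) = S.o 0 p' * S.n1 * (S.h β' β' * S.o 0 q')) :
    p = p' ∧ β = β' ∧ q = q' := by
  have hb : ∀ (γ : Fˣ) (s : F), S.h γ γ * S.o 0 s ∈ BM S := fun γ s =>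
    mul_mem (Subgroup.mem_sup_left (h_TM S γ)) (Subgroup.mem_sup_right (S.mX1 s))
  have h1 : S.n1⁻¹ * ((S.o 0 p')⁻¹ * S.o 0 p) * S.n1 = (S.h β' β' * S.o 0 q') * (S.h β β * S.o 0 q)⁻¹ := by
    calc S.n1⁻¹ * ((S.o 0 p')⁻¹ * S.o 0 p) * S.n1 =
        S.n1⁻¹ * (S.o 0 p')⁻¹ * (S.o 0 p * S.n1 * (S.h β β * S.o 0 q)) * (S.h β β * S.o 0 q)⁻¹ := by group
      _ = _ := by rw [h]; group
  have h2 : (S.o 0 p')⁻¹ * S.o 0 p ∈ S.XZ 1 := mul_mem (inv_mem (S.mX1 _)) (S.mX1 _)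
  obtain ⟨t, ht⟩ := S.X1 h2
  rw [← ht] at h1
  have h3 : S.n1⁻¹ * S.o 0 t * S.n1 = S.o 4 t := by
    rw [n1_inv, nx, mul_assoc, S.n1_sq, mul_one]
  rw [h3] at h1
  have h4 := X9_inf_BM S (S.mX9 t) (by rw [h1]; exact mul_mem (hb _ _) (inv_mem (hb _ _)))
  have h5 : t = 0 := S.o_eq_one h4
  rw [h5, S.o_zero] at ht
  have h6 : S.o 0 p = S.o 0 p' := (inv_mul_eq_one.1 ht.symm).symm
  rw [h6] at h
  have h7 := mul_left_cancel h
  have h8 : S.h (β'⁻¹ * β) (β'⁻¹ * β) ∈ S.XZ 1 := by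
    have e : S.h (β'⁻¹ * β) (β'⁻¹ * β) = S.o 0 q' * (S.o 0 q)⁻¹ := by
      rw [← S.h_mul, ← S.h_inv]
      calc (S.h β' β')⁻¹ * S.h β β = (S.h β' β')⁻¹ * (S.h β β * S.o 0 q) * (S.o 0 q)⁻¹ := by group
        _ = _ := by rw [h7]; group
    rw [e]
    exact mul_mem (S.mX1 _) (inv_mem (S.mX1 _))
  have h9 := TM_inf_X1 S h8
  rw [inv_mul_eq_one] at h9
  subst h9
  exact ⟨S.injO 0 h6, rfl, S.injO 0 (mul_left_cancel h7)⟩

theorem not_BM {p q : F} {β : Fˣ} (h : S.o 0 p * S.n1 * (S.h β β * S.o 0 q) ∈ BM S) : False := by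
  apply n1_not_mem S
  have e : S.n1 = (S.o 0 p)⁻¹ * (S.o 0 p * S.n1 * (S.h β β * S.o 0 q)) * (S.h β β * S.o 0 q)⁻¹ := by group
  rw [e]
  exact mul_mem (mul_mem (inv_mem (Subgroup.mem_sup_right (S.mX1 p))) h)
    (inv_mem (mul_mem (Subgroup.mem_sup_left (h_TM S β)) (Subgroup.mem_sup_right (S.mX1 q))))

/-- the coordinates of an element of `LO` -/
theorem LO_form [Finite F] {l : G} (hl : l ∈ S.LO) : (∃ a c, l = S.o 0 a * S.h c c) ∨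
    ∃ p β q, l = S.o 0 p * S.n1 * (S.h β β * S.o 0 q) := by
  rcases LO_bruhat S hl with h | ⟨x, hx1, b, hb, rfl⟩
  · left
    obtain ⟨x, hx1, t, ⟨c, rfl⟩, rfl⟩ := BM_form S h
    obtain ⟨a, rfl⟩ := S.X1 hx1
    exact ⟨a, c, rfl⟩
  · right
    obtain ⟨x', hx1', t, ⟨c, rfl⟩, rfl⟩ := BM_form S hb
    obtain ⟨p, rfl⟩ := S.X1 hx1
    obtain ⟨a, rfl⟩ := S.X1 hx1'
    exact ⟨p, c, _, by rw [hx']⟩

/-- the elements of `LO` that commute with `dd`, coordinates -/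
theorem coord [Finite F] {p q : F} {β : Fˣ}
    (h : (S.o 0 p * S.n1 * (S.h β β * S.o 0 q)) * dd S = dd S * (S.o 0 p * S.n1 * (S.h β β * S.o 0 q))) :
    q = p + 1 ∧ ((β⁻¹ : Fˣ) : F) * ((β⁻¹ : Fˣ) : F) = p ^ 2 + p + 1 := by
  have h2 := S.two
  -- the two sides
  have hl : (S.o 0 p * S.n1 * (S.h β β * S.o 0 q)) * dd S = S.o 0 p * S.h β⁻¹ β⁻¹ * S.o 4 (q + 1) := by
    calc (S.o 0 p * S.n1 * (S.h β β * S.o 0 q)) * dd S =
        S.o 0 p * S.n1 * (S.h β β * (S.o 0 q * S.o 0 1) * S.n1) := by rw [dd_eq]; group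
      _ = S.o 0 p * (S.n1 * S.h β β) * S.o 0 (q + 1) * S.n1 := by rw [xx]; group
      _ = S.o 0 p * S.h β⁻¹ β⁻¹ * (S.n1 * S.o 0 (q + 1)) * S.n1 := by
          have := hn S β⁻¹
          rw [inv_inv] at this
          rw [← this]; group
      _ = S.o 0 p * S.h β⁻¹ β⁻¹ * S.o 4 (q + 1) * (S.n1 * S.n1) := by rw [nx]; group
      _ = _ := by rw [S.n1_sq, mul_one]
  have hr : dd S * (S.o 0 p * S.n1 * (S.h β β * S.o 0 q)) = S.o 0 1 * S.o 4 p * (S.h β β * S.o 0 q) := by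
    calc dd S * (S.o 0 p * S.n1 * (S.h β β * S.o 0 q)) =
        S.o 0 1 * (S.n1 * S.o 0 p) * S.n1 * (S.h β β * S.o 0 q) := by rw [dd_eq]; group
      _ = S.o 0 1 * S.o 4 p * (S.n1 * S.n1) * (S.h β β * S.o 0 q) := by rw [nx]; group
      _ = _ := by rw [S.n1_sq, mul_one]
  rw [hl, hr] at h
  have hbx : ∀ s : F, S.o 0 s ∈ BM S := fun s => Subgroup.mem_sup_right (S.mX1 s)
  have hbt : ∀ γ : Fˣ, S.h γ γ ∈ BM S := fun γ => Subgroup.mem_sup_left (h_TM S γ)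
  by_cases hp : p = 0
  · subst hp
    rw [S.o_zero, one_mul, S.o_zero, mul_one] at h
    have h3 : S.o 4 (q + 1) ∈ BM S := by
      have e : S.o 4 (q + 1) = (S.h β⁻¹ β⁻¹)⁻¹ * (S.o 0 1 * (S.h β β * S.o 0 q)) := by rw [← h]; group
      rw [e]
      exact mul_mem (inv_mem (hbt _)) (mul_mem (hbx _) (mul_mem (hbt _) (hbx _)))
    have h4 := S.o_eq_one (X9_inf_BM S (S.mX9 _) h3)
    have hq : q = 1 := by linear_combination h4 - h2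
    subst hq
    rw [h4, S.o_zero, mul_one, ← mul_assoc, hx', mul_assoc, xx] at h
    have h5 : S.h (β⁻¹ * β⁻¹) (β⁻¹ * β⁻¹) ∈ S.XZ 1 := by
      rw [← S.h_mul]
      nth_rewrite 2 [h]
      rw [← mul_assoc, S.h_mul, inv_mul_cancel, S.h_one, one_mul]
      exact S.mX1 _
    have h6 := TM_inf_X1 S h5
    refine ⟨by ring, ?_⟩
    rw [← Units.val_mul, h6]
    simp
  · obtain ⟨π, hπ⟩ : ∃ π : Fˣ, (π : F) = p := ⟨Units.mk0 p hp, rfl⟩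
    subst hπ
    have hr2 : S.o 0 1 * S.o 4 (π : F) * (S.h β β * S.o 0 q) =
        S.o 0 (1 + ((π⁻¹ : Fˣ) : F)) * S.n1 * (S.h (π * β) (π * β) *
          S.o 0 (((β⁻¹ : Fˣ) : F) * ((β⁻¹ : Fˣ) : F) * ((π⁻¹ : Fˣ) : F) + q)) := by
      rw [key S π]
      calc S.o 0 1 * (S.o 0 ((π⁻¹ : Fˣ) : F) * S.n1 * (S.h π π * S.o 0 ((π⁻¹ : Fˣ) : F))) * (S.h β β * S.o 0 q) =
          (S.o 0 1 * S.o 0 ((π⁻¹ : Fˣ) : F)) * S.n1 * (S.h π π * (S.o 0 ((π⁻¹ : Fˣ) : F) * S.h β β) * S.o 0 q) := by group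
        _ = _ := by rw [xx, hx', ← xx S _ q, ← S.h_mul]; group
    rw [hr2] at h
    by_cases hq : q + 1 = 0
    · exfalso
      rw [hq, S.o_zero, mul_one] at h
      exact not_BM S (h ▸ mul_mem (hbx _) (hbt _))
    obtain ⟨ρ, hρ⟩ : ∃ ρ : Fˣ, (ρ : F) = q + 1 := ⟨Units.mk0 _ hq, rfl⟩
    have hl2 : S.o 0 (π : F) * S.h β⁻¹ β⁻¹ * S.o 4 (q + 1) =
        S.o 0 ((π : F) + ((β⁻¹ : Fˣ) : F) * ((β⁻¹ : Fˣ) : F) * ((ρ⁻¹ : Fˣ) : F)) * S.n1 *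
          (S.h (β * ρ) (β * ρ) * S.o 0 ((ρ⁻¹ : Fˣ) : F)) := by
      rw [← hρ, key S ρ]
      calc S.o 0 (π : F) * S.h β⁻¹ β⁻¹ * (S.o 0 ((ρ⁻¹ : Fˣ) : F) * S.n1 * (S.h ρ ρ * S.o 0 ((ρ⁻¹ : Fˣ) : F))) =
          S.o 0 (π : F) * (S.h β⁻¹ β⁻¹ * S.o 0 ((ρ⁻¹ : Fˣ) : F)) * S.n1 * (S.h ρ ρ * S.o 0 ((ρ⁻¹ : Fˣ) : F)) := by group
        _ = (S.o 0 (π : F) * S.o 0 (((β⁻¹ : Fˣ) : F) * ((β⁻¹ : Fˣ) : F) * ((ρ⁻¹ : Fˣ) : F))) *
            (S.h β⁻¹ β⁻¹ * S.n1) * (S.h ρ ρ * S.o 0 ((ρ⁻¹ : Fˣ) : F)) := by rw [hx]; group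
        _ = _ := by rw [xx, hn, inv_inv, ← S.h_mul]; group
    rw [hl2] at h
    obtain ⟨h3, h4, h5⟩ := uniq S h
    have h6 : ρ = π := by
      rw [mul_comm π β] at h4
      exact mul_left_cancel h4
    subst h6
    have hq1 : q = (ρ : F) + 1 := by linear_combination -hρ - h2
    refine ⟨hq1, ?_⟩
    have hρ0 : (ρ : F) * ((ρ⁻¹ : Fˣ) : F) = 1 := by rw [← Units.val_mul, mul_inv_cancel]; rfl
    have h7 : (ρ : F) * ((ρ⁻¹ : Fˣ) : F) = ((β⁻¹ : Fˣ) : F) * ((β⁻¹ : Fˣ) : F) * ((ρ : F) * ((ρ⁻¹ : Fˣ) : F)) +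
        (ρ : F) * q := by
      linear_combination (ρ : F) * h5
    rw [hρ0, hq1] at h7
    linear_combination -h7 - ((ρ : F) ^ 2 + (ρ : F)) * h2

/-- **D3** -/
theorem of_LO [Finite F] {l : G} (hl : l ∈ S.LO) (h : l * dd S = dd S * l) :
    l = 1 ∨ ∃ a : F, a ^ 2 + a + 1 ≠ 0 ∧ l = S.o 0 a * S.o 4 (a ^ 2 + a + 1)⁻¹ * S.o 0 (a + 1) := by
  have h2 := S.two
  rcases LO_form S hl with ⟨a, c, rfl⟩ | ⟨p, β, q, rfl⟩
  · left
    have h3 : S.o 0 a * S.h c c * dd S = S.o 0 (a + (c : F) * c) * S.n1 * (S.h c⁻¹ c⁻¹ * S.o 0 0) := by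
      rw [S.o_zero, mul_one]
      calc S.o 0 a * S.h c c * dd S = S.o 0 a * (S.h c c * S.o 0 1) * S.n1 := by rw [dd_eq]; group
        _ = (S.o 0 a * S.o 0 ((c : F) * c * 1)) * (S.h c c * S.n1) := by rw [hx]; group
        _ = _ := by rw [xx, hn, mul_one]; group
    have h4 : dd S * (S.o 0 a * S.h c c) = S.o 0 1 * S.n1 *
        (S.h c c * S.o 0 (((c⁻¹ : Fˣ) : F) * ((c⁻¹ : Fˣ) : F) * a)) := by
      rw [hx', dd_eq]
    rw [h3, h4] at h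
    obtain ⟨h5, h6, h7⟩ := uniq S h
    have h8 : c = 1 := unit_sq S (by nth_rewrite 1 [← h6]; exact inv_mul_cancel c)
    subst h8
    rw [inv_one, Units.val_one, one_mul, one_mul] at h7
    rw [← h7, S.o_zero, S.h_one, one_mul]
  · right
    obtain ⟨h3, h4⟩ := coord S h
    subst h3
    have h5 : (p + ((β⁻¹ : Fˣ) : F)) ^ 2 + (p + ((β⁻¹ : Fˣ) : F)) + 1 = ((β⁻¹ : Fˣ) : F) := by
      linear_combination h4 + (p ^ 2 + p + 1 + p * ((β⁻¹ : Fˣ) : F)) * h2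
    refine ⟨p + ((β⁻¹ : Fˣ) : F), ?_, ?_⟩
    · rw [h5]
      exact Units.ne_zero _
    · rw [h5, ← Units.val_inv_eq_inv_val, inv_inv, key S β]
      have e : S.o 0 (p + ((β⁻¹ : Fˣ) : F)) * (S.o 0 ((β⁻¹ : Fˣ) : F) * S.n1 * (S.h β β * S.o 0 ((β⁻¹ : Fˣ) : F))) *
          S.o 0 (p + ((β⁻¹ : Fˣ) : F) + 1) = (S.o 0 (p + ((β⁻¹ : Fˣ) : F)) * S.o 0 ((β⁻¹ : Fˣ) : F)) * S.n1 * S.h β β *
          (S.o 0 ((β⁻¹ : Fˣ) : F) * S.o 0 (p + ((β⁻¹ : Fˣ) : F) + 1)) := by group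
      rw [e, xx, xx]
      have e1 : p + ((β⁻¹ : Fˣ) : F) + ((β⁻¹ : Fˣ) : F) = p := by linear_combination ((β⁻¹ : Fˣ) : F) * h2
      have e2 : ((β⁻¹ : Fˣ) : F) + (p + ((β⁻¹ : Fˣ) : F) + 1) = p + 1 := by linear_combination ((β⁻¹ : Fˣ) : F) * h2
      rw [e1, e2, mul_assoc (S.o 0 p * S.n1)]

/-- the endomorphism `σ` of the field with eight elements is `x ↦ x⁴` -/
theorem sig [Finite F] (hsq : ∀ x : F, σ (σ x) = x ^ 2) (h2 : (2 : F) = 0) (h8 : Nat.card F = 8) (x : F) :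
    σ x ^ 2 = x := by
  have hcu : Nat.card Fˣ = 7 := by rw [Nat.card_units, h8]
  have hu : ∀ c : Fˣ, c ^ 7 = 1 := fun c => by rw [← hcu]; exact pow_card_eq_one'
  have hx : ∀ y : F, y ^ 8 = y := by
    intro y
    by_cases hy : y = 0
    · rw [hy]; simp
    · have h3 := congrArg Units.val (hu (Units.mk0 y hy))
      have h4 : y ^ 7 = 1 := h3
      rw [show y ^ 8 = y ^ 7 * y by ring, h4, one_mul]
  -- `τ`
  have tt : ∀ y : F, σ (σ y ^ 2) ^ 2 = y := by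
    intro y
    rw [map_pow, hsq]
    have h3 := hx y
    calc ((y ^ 2) ^ 2) ^ 2 = y ^ 8 := by ring
      _ = y := h3
  have tadd : ∀ y z : F, σ (y + z) ^ 2 = σ y ^ 2 + σ z ^ 2 := by
    intro y z
    rw [_root_.map_add]
    linear_combination (σ y * σ z) * h2
  have tmul : ∀ y z : F, σ (y * z) ^ 2 = σ y ^ 2 * σ z ^ 2 := by
    intro y z
    rw [map_mul]; ring
  -- a fixed element
  obtain ⟨c, hc⟩ : ∃ c : Fˣ, c ≠ 1 := by
    by_contra hne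
    push Not at hne
    have : Nat.card Fˣ = 1 := by
      rw [Nat.card_eq_one_iff_unique]
      exact ⟨⟨fun a b => by rw [hne a, hne b]⟩, ⟨1⟩⟩
    omega
  have hc0 : (c : F) ≠ 0 := c.ne_zero
  have hc1 : (c : F) ≠ 1 := fun h => hc (Units.ext h)
  obtain ⟨e, he0, he1, he⟩ : ∃ e : F, e ≠ 0 ∧ e ≠ 1 ∧ σ e ^ 2 = e := by
    by_cases h3 : (c : F) + σ c ^ 2 = 0
    · exact ⟨c, hc0, hc1, by linear_combination h3 - c * h2⟩
    by_cases h4 : (c : F) + σ c ^ 2 = 1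
    · refine ⟨c * σ c ^ 2, mul_ne_zero hc0 (pow_ne_zero 2 ?_), ?_, ?_⟩
      · rw [Ne, map_eq_zero]; exact hc0
      · intro h5
        have h6 : σ c ^ 2 = (c : F) + 1 := by linear_combination h4 - c * h2
        rw [h6] at h5
        have h7 : (c : F) ^ 3 = 1 := by linear_combination ((c : F) + 1) * h5 - (c : F) ^ 2 * h2
        have h8' : (c : F) ^ 7 = 1 := congrArg Units.val (hu c)
        apply hc1
        linear_combination h8' - c * (c ^ 3 + 1) * h7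
      · rw [tmul, tt, mul_comm]
    · refine ⟨c + σ c ^ 2, h3, h4, ?_⟩
      rw [tadd, tt, add_comm]
  -- `e` generates
  obtain ⟨ε, hε⟩ : ∃ ε : Fˣ, (ε : F) = e := ⟨Units.mk0 e he0, rfl⟩
  have hε1 : ε ≠ 1 := by
    rintro rfl
    exact he1 hε.symm
  have hord : orderOf ε = 7 := by
    have := Fact.mk (by norm_num : Nat.Prime 7)
    exact orderOf_eq_prime (hu ε) hε1
  by_cases hx0 : x = 0
  · rw [hx0]; simp
  have hgen : Units.mk0 x hx0 ∈ Subgroup.zpowers ε := by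
    have htop : Subgroup.zpowers ε = ⊤ := by
      refine Subgroup.eq_top_of_card_eq _ ?_
      rw [Nat.card_zpowers, hord, hcu]
    rw [htop]
    trivial
  obtain ⟨k, hk⟩ := Subgroup.mem_zpowers_iff.1 hgen
  have h9 : Units.map (σ : F →* F) ε ^ 2 = ε := by
    apply Units.ext
    show σ (ε : F) ^ 2 = ε
    rw [hε, he]
  have h10 : Units.map (σ : F →* F) (Units.mk0 x hx0) ^ 2 = Units.mk0 x hx0 := by
    rw [← hk, map_zpow, ← zpow_natCast, ← zpow_mul, mul_comm, zpow_mul, zpow_natCast, h9]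
  exact congrArg Units.val h10

/-- **D4** -/
theorem of_HO' [Finite F] (hF : ∃ c : Fˣ, c ≠ 1) (hs : ∀ x : F, σ x ^ 2 = x) {g : G} (hg : g ∈ S.HO)
    (h : g * dd S = dd S * g) :
    ∃ u t s, g = gE S u t s ∨ ∃ a : F, a ^ 2 + a + 1 ≠ 0 ∧
      g = gE S u t s * (S.o 0 a * S.o 4 (a ^ 2 + a + 1)⁻¹ * S.o 0 (a + 1)) := by
  have hddL : dd S ∈ S.LO := mul_mem (Subgroup.mem_sup_right (S.mX9 1)) (Subgroup.mem_sup_left (S.mX1 1))
  have hnorm : ∀ l ∈ S.LO, ∀ r ∈ S.NO, l * r * l⁻¹ ∈ S.NO := by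
    intro l hl r hr
    obtain ⟨hr1, hr2⟩ := Subgroup.mem_inf.mp hr
    have hlc := S.LO_le_cent hl
    exact Subgroup.mem_inf.mpr ⟨S.zsys8.conj_J (a := 2) (b := 8) (c := 1) (d := 9) (by norm_num) (by norm_num)
      (by norm_num) (S.LO_le_J hl) hr1, mul_mem (mul_mem hlc hr2) (inv_mem hlc)⟩
  obtain ⟨l, hl, r0, hr0, rfl⟩ := mem_sup_of_norm hnorm hg
  obtain ⟨r, hr⟩ : ∃ r, r = l * r0 * l⁻¹ := ⟨_, rfl⟩
  have hrN : r ∈ S.NO := by rw [hr]; exact hnorm l hl r0 hr0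
  have hg2 : l * r0 = r * l := by rw [hr]; group
  rw [hg2] at h ⊢
  -- `l` commutes with `dd`
  have h1 : l * dd S * l⁻¹ * (dd S)⁻¹ = r⁻¹ * (dd S * r * (dd S)⁻¹) := by
    calc l * dd S * l⁻¹ * (dd S)⁻¹ = r⁻¹ * (r * l * dd S) * l⁻¹ * (dd S)⁻¹ := by group
      _ = _ := by rw [h]; group
  have h2 : l * dd S * l⁻¹ * (dd S)⁻¹ = 1 := by
    refine LO_inf_N1 S hF (mul_mem (mul_mem (mul_mem hl hddL) (inv_mem hl)) (inv_mem hddL)) ?_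
    rw [h1]
    have k1 := (Subgroup.mem_inf.mp hrN).1
    have k2 := (Subgroup.mem_inf.mp (hnorm _ hddL _ hrN)).1
    exact Subgroup.mem_sup_right (mul_mem (inv_mem k1) k2)
  have h3 : l * dd S = dd S * l := by
    rw [mul_inv_eq_one, mul_inv_eq_iff_eq_mul] at h2
    exact h2
  have h4 : r * dd S = dd S * r := by
    rw [mul_assoc, h3, ← mul_assoc, ← mul_assoc] at h
    exact mul_right_cancel h
  obtain ⟨u, t, s, rfl⟩ := of_NO S hs hrN h4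
  refine ⟨u, t, s, ?_⟩
  rcases of_LO S hl h3 with rfl | ⟨a, ha, rfl⟩
  · exact Or.inl (mul_one _)
  · exact Or.inr ⟨a, ha, rfl⟩

section eight

variable [Finite F] (h8 : Nat.card F = 8)
include h8

include S in
theorem sig' : ∀ x : F, σ x ^ 2 = x := sig S.sq S.two h8

theorem exists_ne : ∃ c : Fˣ, c ≠ 1 := by
  by_contra hne
  push Not at hne
  have h1 : Nat.card Fˣ = 1 := by
    rw [Nat.card_eq_one_iff_unique]
    exact ⟨⟨fun a b => by rw [hne a, hne b]⟩, ⟨1⟩⟩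
  rw [Nat.card_units, h8] at h1
  omega

/-- **D1** for the field with eight elements -/
theorem comm_dd (u t s : F) : gE S u t s * dd S = dd S * gE S u t s := gE_comm S (sig' S h8) u t s

/-- **D2** for the field with eight elements -/
theorem of_NO8 {r : G} (hr : r ∈ S.NO) (h : r * dd S = dd S * r) : ∃ u t s, r = gE S u t s :=
  of_NO S (sig' S h8) hr h

/-- **D4** for the field with eight elements -/
theorem of_HO {g : G} (hg : g ∈ S.HO) (h : g * dd S = dd S * g) :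
    ∃ u t s, g = gE S u t s ∨ ∃ a : F, a ^ 2 + a + 1 ≠ 0 ∧
      g = gE S u t s * (S.o 0 a * S.o 4 (a ^ 2 + a + 1)⁻¹ * S.o 0 (a + 1)) :=
  of_HO' S (exists_ne h8) (sig' S h8) hg h

end eight

end Cfsg.Agent.H823.Ree8D
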